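/-
Rational representations of degree 23 (S3355): definitions.
-/
import Mathlib
import Cfsg.Prelude.Def_Spor_Conway

set_option autoImplicit false

namespace CL.F23

open Matrix Module

/-- the rational space of dimension 23 -/
abbrev V : Type := Fin 23 → ℚ

/-- integer matrices of size 23 -/
abbrev MZ : Type := Matrix (Fin 23) (Fin 23) ℤ

/-- an integer matrix as a rational matrix -/
abbrev toQ {r : ℕ} (A : Matrix (Fin r) (Fin r) ℤ) : Matrix (Fin r) (Fin r) ℚ := A.map (Int.cast : ℤ → ℚ)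

/-- a rational number is an integer -/
def IsZ (x : ℚ) : Prop := ∃ n : ℤ, x = n

theorem IsZ.int (n : ℤ) : IsZ n := ⟨n, rfl⟩
theorem IsZ.zero : IsZ 0 := ⟨0, by simp⟩
theorem IsZ.add {x y : ℚ} (hx : IsZ x) (hy : IsZ y) : IsZ (x + y) := by
  obtain ⟨a, rfl⟩ := hx
  obtain ⟨b, rfl⟩ := hy
  exact ⟨a + b, by simp⟩
theorem IsZ.neg {x : ℚ} (hx : IsZ x) : IsZ (-x) := by
  obtain ⟨a, rfl⟩ := hx
  exact ⟨-a, by simp⟩
theorem IsZ.sub {x y : ℚ} (hx : IsZ x) (hy : IsZ y) : IsZ (x - y) := by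
  obtain ⟨a, rfl⟩ := hx
  obtain ⟨b, rfl⟩ := hy
  exact ⟨a - b, by simp⟩
theorem IsZ.mul {x y : ℚ} (hx : IsZ x) (hy : IsZ y) : IsZ (x * y) := by
  obtain ⟨a, rfl⟩ := hx
  obtain ⟨b, rfl⟩ := hy
  exact ⟨a * b, by simp⟩
theorem IsZ.of_eq {x y : ℚ} (hx : IsZ x) (h : y = x) : IsZ y := h ▸ hx

/-- `G` has a subgroup of index 23 or 24 -/
def Idx (G : Type*) [Group G] : Prop := ∃ H : Subgroup G, H.index = 23 ∨ H.index = 24

/-- the conclusion of S3355 -/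
def Goal (G : Type*) [Group G] : Prop :=
  (∃ f : G →* Multiplicative (ZMod 2) × Cfsg.Spor.Co2, Function.Injective f) ∨
    (∃ f : G →* Multiplicative (ZMod 2) × Cfsg.Spor.Co3, Function.Injective f)

section Abstract

variable {U : Type} [AddCommGroup U] [Module ℚ U]

/-- `x` lies in the dual lattice of `M` -/
def Dual (B : LinearMap.BilinForm ℚ U) (M : Submodule ℤ U) (x : U) : Prop := ∀ y ∈ M, IsZ (B x y)

/-- an even unimodular positive definite lattice -/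
structure EU (B : LinearMap.BilinForm ℚ U) (M : Submodule ℤ U) : Prop where
  symm : ∀ x y, B x y = B y x
  pos : ∀ x, x ≠ 0 → 0 < B x x
  lat : M.IsLattice ℚ
  even : ∀ x ∈ M, IsZ (B x x / 2)
  sd : ∀ x, Dual B M x → x ∈ M

/-- an even lattice `K` of rank 22 with a fixed point free isometry `T` of order 23 and discriminant group
of order 23 generated by `y0`, of norm `-m/23` modulo 2 -/
structure Cy (c : LinearMap.BilinForm ℚ U) (T : U →ₗ[ℚ] U) (K : Submodule ℤ U) (y0 : U) (m : ℤ) : Prop where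
  dim : finrank ℚ U = 22
  symm : ∀ x y, c x y = c y x
  pos : ∀ x, x ≠ 0 → 0 < c x x
  lat : K.IsLattice ℚ
  even : ∀ x ∈ K, IsZ (c x x / 2)
  iso : ∀ x y, c (T x) (T y) = c x y
  sum : ∀ x, ∑ i ∈ Finset.range 23, (T ^ i) x = 0
  inv : ∀ x ∈ K, T x ∈ K
  dual : Dual c K y0
  y23 : (23 : ℚ) • y0 ∈ K
  gen : ∀ y, Dual c K y → ∃ j : ℤ, y - (j : ℚ) • y0 ∈ K
  triv : T y0 - y0 ∈ K
  norm : IsZ ((c y0 y0 + m / 23) / 2)
  ev : Even m
  n23 : ¬ 23 ∣ m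

/-- orthogonal sum of a form with the form of an integer matrix -/
noncomputable def gForm {r : ℕ} (c : LinearMap.BilinForm ℚ U) (A : Matrix (Fin r) (Fin r) ℤ) :
    LinearMap.BilinForm ℚ (U × (Fin r → ℚ)) :=
  c.comp (LinearMap.fst ℚ U _) (LinearMap.fst ℚ U _) +
    (Matrix.toBilin' (toQ A)).comp (LinearMap.snd ℚ U _) (LinearMap.snd ℚ U _)

theorem gForm_apply {r : ℕ} (c : LinearMap.BilinForm ℚ U) (A : Matrix (Fin r) (Fin r) ℤ)
    (p q : U × (Fin r → ℚ)) : gForm c A p q = c p.1 q.1 + p.2 ⬝ᵥ toQ A *ᵥ q.2 := by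
  simp [gForm, Matrix.toBilin'_apply']

/-- the lattice `K ⊕ ℤ^r` glued along `(y0, f0)` -/
def gLat {r : ℕ} (K : Submodule ℤ U) (y0 : U) (f0 : Fin r → ℚ) : Submodule ℤ (U × (Fin r → ℚ)) where
  carrier := {p | ∃ j : ℤ, p.1 - (j : ℚ) • y0 ∈ K ∧ ∀ i, IsZ (p.2 i - j * f0 i)}
  zero_mem' := ⟨0, by simp, fun i => by simpa using IsZ.zero⟩
  add_mem' := by
    rintro p q ⟨j, h1, h2⟩ ⟨k, h3, h4⟩
    refine ⟨j + k, ?_, fun i => ((h2 i).add (h4 i)).of_eq (by simp; ring)⟩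
    convert K.add_mem h1 h3 using 1
    simp only [Prod.fst_add, Int.cast_add, add_smul]
    abel
  smul_mem' := by
    rintro n p ⟨j, h1, h2⟩
    refine ⟨n * j, ?_, fun i => ((IsZ.int n).mul (h2 i)).of_eq (by simp; ring)⟩
    convert K.smul_mem n h1 using 1
    simp only [Prod.smul_fst, Int.cast_mul, smul_sub, mul_smul, Int.cast_smul_eq_zsmul]

theorem mem_gLat {r : ℕ} {K : Submodule ℤ U} {y0 : U} {f0 : Fin r → ℚ} {p : U × (Fin r → ℚ)} :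
    p ∈ gLat K y0 f0 ↔ ∃ j : ℤ, p.1 - (j : ℚ) • y0 ∈ K ∧ ∀ i, IsZ (p.2 i - j * f0 i) := Iff.rfl

end Abstract

variable {G : Type*} [Group G]

/-- an integral model: a faithful rationally irreducible representation by integer matrices with an
invariant positive definite integral form -/
structure IsMod (σ : G →* MZ) (B : MZ) : Prop where
  inj : Function.Injective σ
  irr : ∀ W : Submodule ℚ V, (∀ g, ∀ w ∈ W, toQ (σ g) *ᵥ w ∈ W) → W = ⊥ ∨ W = ⊤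
  symm : B.IsSymm
  pos : ∀ x : Fin 23 → ℤ, x ≠ 0 → 0 < x ⬝ᵥ B *ᵥ x
  inv : ∀ g, (σ g)ᵀ * B * σ g = B

/-- the properties of a model of minimal determinant and an element `τ` of order 23 -/
structure Good (σ : G →* MZ) (B : MZ) (τ : G) : Prop where
  mod : IsMod σ B
  ord : orderOf τ = 23
  sq : ∀ q : ℕ, q.Prime → ∀ x : Fin 23 → ℤ, (∀ i, (q : ℤ) ^ 2 ∣ (B *ᵥ x) i) → ∀ i, (q : ℤ) ∣ x i
  loc : ∀ q : ℕ, q.Prime → ∀ x : Fin 23 → ℤ, (∀ i, (q : ℤ) ∣ (B *ᵥ x) i) →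
    ∀ i, (q : ℤ) ∣ (σ τ *ᵥ x - x) i
  l23 : ∀ x : Fin 23 → ℤ, (∀ i, (23 : ℤ) ∣ (B *ᵥ x) i) → ∀ i, (23 : ℤ) ∣ x i

/-- a faithful irreducible representation on `V` with an invariant positive definite form -/
structure Ctx (ρ : G →* (V →ₗ[ℚ] V)) (b : LinearMap.BilinForm ℚ V) : Prop where
  inj : Function.Injective ρ
  irr : ∀ W : Submodule ℚ V, (∀ g, ∀ w ∈ W, ρ g w ∈ W) → W = ⊥ ∨ W = ⊤
  symm : ∀ x y, b x y = b y x
  pos : ∀ x, x ≠ 0 → 0 < b x x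
  inv : ∀ g x y, b (ρ g x) (ρ g y) = b x y

/-- an invariant integral lattice `L` such that `τ` (of order 23) is trivial on `L*/L`, which has no
23-torsion and squarefree exponent -/
structure St0 (ρ : G →* (V →ₗ[ℚ] V)) (b : LinearMap.BilinForm ℚ V) (τ : G) (L : Submodule ℤ V) : Prop where
  ctx : Ctx ρ b
  lat : L.IsLattice ℚ
  inv : ∀ g, ∀ x ∈ L, ρ g x ∈ L
  int : ∀ x ∈ L, ∀ y ∈ L, IsZ (b x y)
  ord : orderOf τ = 23
  fix : ∃ u : V, u ≠ 0 ∧ ∀ x, ρ τ x = x ↔ ∃ c : ℚ, x = c • u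
  triv : ∀ x, Dual b L x → ρ τ x - x ∈ L
  n23 : ∀ x, Dual b L x → (23 : ℚ) • x ∈ L → x ∈ L
  sqf : ∀ q : ℕ, q.Prime → ∀ x, Dual b L x → ((q : ℚ) ^ 2) • x ∈ L → (q : ℚ) • x ∈ L

/-- the main setting: an even invariant lattice `L`, `u` spans the fixed line of `τ`, `V₀ = u^⊥`,
`L* ∩ V₀ ≤ L`, and the projection of `L` on the fixed line is generated by `u/23` (from `x1`) -/
structure St (ρ : G →* (V →ₗ[ℚ] V)) (b : LinearMap.BilinForm ℚ V) (τ : G) (L : Submodule ℤ V)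
    (u x1 : V) (m : ℤ) : Prop where
  ctx : Ctx ρ b
  lat : L.IsLattice ℚ
  inv : ∀ g, ∀ x ∈ L, ρ g x ∈ L
  int : ∀ x ∈ L, ∀ y ∈ L, IsZ (b x y)
  even : ∀ x ∈ L, IsZ (b x x / 2)
  ord : orderOf τ = 23
  fix : ∀ x, ρ τ x = x ↔ ∃ c : ℚ, x = c • u
  u_mem : u ∈ L
  x1_mem : x1 ∈ L
  uu : b u u = 23 * m
  ux1 : b u x1 = m
  dvd : ∀ x ∈ L, ∃ k : ℤ, b u x = k * m
  p2 : ∀ w, b u w = 0 → Dual b L w → w ∈ L
  pos : 0 < m
  ev : Even m
  n23 : ¬ 23 ∣ m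
  n8 : ¬ 8 ∣ m
  n9 : ¬ 9 ∣ m

/-- `L ∩ u^⊥` has no roots -/
def NoRoot (b : LinearMap.BilinForm ℚ V) (L : Submodule ℤ V) (u : V) : Prop :=
  ∀ x ∈ L, b u x = 0 → b x x ≠ 2

/-- the four cases leading to the Leech lattice -/
def MS (m s : ℤ) : Prop := (m = 4 ∧ s = 1) ∨ (m = 6 ∧ s = 1) ∨ (m = 12 ∧ s = 5) ∨ (m = 26 ∧ s = 9)

/-- the form `b ⊕ ⟨m⟩` on `V × ℚ` -/
noncomputable def eForm (b : LinearMap.BilinForm ℚ V) (m : ℤ) : LinearMap.BilinForm ℚ (V × ℚ) :=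
  b.comp (LinearMap.fst ℚ V ℚ) (LinearMap.fst ℚ V ℚ) +
    (m : ℚ) • LinearMap.BilinForm.comp (LinearMap.mul ℚ ℚ) (LinearMap.snd ℚ V ℚ) (LinearMap.snd ℚ V ℚ)

theorem eForm_apply (b : LinearMap.BilinForm ℚ V) (m : ℤ) (p q : V × ℚ) :
    eForm b m p q = b p.1 q.1 + m * (p.2 * q.2) := by
  simp [eForm]

/-- the lattice `L ⊕ ℤ` glued along `(u/m, s/m)` -/
def eLat (L : Submodule ℤ V) (u : V) (m s : ℤ) : Submodule ℤ (V × ℚ) where
  carrier := {p | ∃ a : ℤ, p.1 - ((a : ℚ) / m) • u ∈ L ∧ IsZ (p.2 - a * s / m)}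
  zero_mem' := ⟨0, by simp, by simpa using IsZ.zero⟩
  add_mem' := by
    rintro p q ⟨j, h1, h2⟩ ⟨k, h3, h4⟩
    refine ⟨j + k, ?_, (h2.add h4).of_eq (by simp; ring)⟩
    convert L.add_mem h1 h3 using 1
    simp only [Prod.fst_add, Int.cast_add, add_div, add_smul]
    abel
  smul_mem' := by
    rintro n p ⟨j, h1, h2⟩
    refine ⟨n * j, ?_, ((IsZ.int n).mul h2).of_eq (by simp; ring)⟩
    convert L.smul_mem n h1 using 1
    simp only [Prod.smul_fst, Int.cast_mul, smul_sub, mul_div_assoc, mul_smul, Int.cast_smul_eq_zsmul]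

theorem mem_eLat {L : Submodule ℤ V} {u : V} {m s : ℤ} {p : V × ℚ} :
    p ∈ eLat L u m s ↔ ∃ a : ℤ, p.1 - ((a : ℚ) / m) • u ∈ L ∧ IsZ (p.2 - a * s / m) := Iff.rfl

end CL.F23
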