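/-
S3355: even unimodular lattices: rank divisible by 8, and the Leech lattice.
-/
import Cfsg.Agent.REC.F23.Defs
import Cfsg.Agent.SPOR.Theta2
import Cfsg.Agent.S1632
import Cfsg.Agent.S0406

set_option autoImplicit false

namespace CL.F23

open Matrix Module

variable {U : Type} [AddCommGroup U] [Module ℚ U] [FiniteDimensional ℚ U]
  {B : LinearMap.BilinForm ℚ U} {M : Submodule ℤ U}

omit [FiniteDimensional ℚ U] in
/-- every vector has a non-zero multiple in a lattice -/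
theorem Gram.exists_mul (hM : M.IsLattice ℚ) (x : U) : ∃ n : ℤ, n ≠ 0 ∧ n • x ∈ M := by
  have hx : x ∈ Submodule.span ℚ (M : Set U) := by rw [hM.span_eq_top]; trivial
  induction hx using Submodule.span_induction with
  | mem x hx => exact ⟨1, one_ne_zero, by rwa [one_smul]⟩
  | zero => exact ⟨1, one_ne_zero, by rw [smul_zero]; exact M.zero_mem⟩
  | add x y _ _ hx hy =>
    obtain ⟨a, ha, hx⟩ := hx
    obtain ⟨b, hb, hy⟩ := hy
    refine ⟨a * b, mul_ne_zero ha hb, ?_⟩
    rw [smul_add, mul_smul a b y, mul_comm, mul_smul]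
    exact M.add_mem (M.smul_mem b hx) (M.smul_mem a hy)
  | smul q x _ hx =>
    obtain ⟨a, ha, hx⟩ := hx
    refine ⟨a * q.den, mul_ne_zero ha (by exact_mod_cast q.den_ne_zero), ?_⟩
    have : (a * q.den : ℤ) • q • x = q.num • a • x := by
      rw [← Int.cast_smul_eq_zsmul ℚ, ← Int.cast_smul_eq_zsmul ℚ, ← Int.cast_smul_eq_zsmul ℚ,
        smul_smul, smul_smul, ← Rat.mul_den_eq_num]
      congr 1
      push_cast
      ring
    rw [this]
    exact M.smul_mem _ hx

theorem Gram.posDef {n : ℕ} {A : Matrix (Fin n) (Fin n) ℤ} (hs : A.IsSymm)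
    (hp : ∀ x : Fin n → ℤ, x ≠ 0 → 0 < x ⬝ᵥ A *ᵥ x) (hd : A.det ≠ 0) :
    (A.map (Int.cast : ℤ → ℝ)).PosDef := by
  refine (PosSemidef.posDef_iff_det_ne_zero (.of_dotProduct_mulVec_nonneg
    (isHermitian_iff_isSymm.2 (hs.map _)) fun x => ?_)).2 ?_
  · refine (DenseRange.piMap fun _ : Fin n => Rat.denseRange_cast (𝕜 := ℝ)).induction_on x
      (isClosed_le continuous_const (by fun_prop)) fun q => ?_
    obtain ⟨⟨b, hb⟩, e⟩ := IsLocalization.exist_integer_multiples_of_finite (nonZeroDivisors ℤ) q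
    choose y hy using e
    have hb' : (b : ℝ) ≠ 0 := Int.cast_ne_zero.2 (nonZeroDivisors.ne_zero hb)
    have e : Pi.map (fun _ => (Rat.cast : ℚ → ℝ)) q = (b : ℝ)⁻¹ • fun i => (y i : ℝ) :=
      funext fun i => by
        have := congrArg (Rat.cast : ℚ → ℝ) (hy i)
        simp at this
        simp [this, hb']
    rw [star_trivial, e, mulVec_smul, dotProduct_smul, smul_dotProduct, CL.Theta.cast_form,
      smul_smul]
    refine mul_nonneg (mul_self_nonneg _) (Int.cast_nonneg ?_)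
    rcases eq_or_ne y 0 with rfl | h
    · simp
    exact (hp y h).le
  · rw [← Int.cast_det]
    exact_mod_cast hd

theorem Gram.det_pos {n : ℕ} {A : Matrix (Fin n) (Fin n) ℤ} (hs : A.IsSymm)
    (hp : ∀ x : Fin n → ℤ, x ≠ 0 → 0 < x ⬝ᵥ A *ᵥ x) (hd : A.det ≠ 0) : 0 < A.det := by
  have := (Gram.posDef hs hp hd).det_pos
  rw [← Int.cast_det] at this
  exact_mod_cast this

omit [FiniteDimensional ℚ U] in
theorem Gram.pos_even (h : EU B M) {n : ℕ} {A : Matrix (Fin n) (Fin n) ℤ} {e : (Fin n → ℤ) ≃+ M}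
    (key : ∀ x y, B (e x) (e y) = (x ⬝ᵥ A *ᵥ y : ℤ)) :
    (∀ x : Fin n → ℤ, x ≠ 0 → 0 < x ⬝ᵥ A *ᵥ x) ∧ ∀ x : Fin n → ℤ, 2 ∣ x ⬝ᵥ A *ᵥ x := by
  refine ⟨fun x hx => ?_, fun x => ?_⟩
  · have := h.pos (e x) (fun h0 => hx (e.injective (by rw [map_zero]; exact Subtype.ext h0)))
    rw [key] at this
    exact_mod_cast this
  · obtain ⟨k, hk⟩ := h.even _ (e x).2
    rw [key, div_eq_iff two_ne_zero] at hk
    exact ⟨k, by rw [mul_comm]; exact_mod_cast hk⟩

omit [FiniteDimensional ℚ U] in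
/-- even lattices are integral: `B x y = (B (x+y) (x+y) - B x x - B y y) / 2` -/
theorem int_of_even (symm : ∀ x y, B x y = B y x) (even : ∀ x ∈ M, IsZ (B x x / 2)) :
    ∀ x ∈ M, ∀ y ∈ M, IsZ (B x y) := by
  intro x hx y hy
  refine (((even _ (M.add_mem hx hy)).sub (even x hx)).sub (even y hy)).of_eq ?_
  simp only [map_add, LinearMap.add_apply]
  rw [symm y x]
  ring

/-- the intersection of a lattice with a subspace is a lattice in the subspace (f.g. as `ℤ` is noetherian; every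
vector has a multiple in `M`) -/
theorem isLattice_comap (hM : M.IsLattice ℚ) (W : Submodule ℚ U) :
    (M.comap (W.subtype.restrictScalars ℤ)).IsLattice ℚ := by
  refine ⟨?_, ?_⟩
  · refine Submodule.fg_of_fg_map_injective (W.subtype.restrictScalars ℤ) W.injective_subtype ?_
    exact hM.fg.of_le (Submodule.map_comap_le _ _)
  · rw [eq_top_iff]
    rintro w -
    obtain ⟨n, hn, h⟩ := Gram.exists_mul hM (w : U)
    have h1 : n • w ∈ Submodule.span ℚ
        ((M.comap (W.subtype.restrictScalars ℤ) : Submodule ℤ W) : Set W) :=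
      Submodule.subset_span h
    have h2 := Submodule.smul_mem _ (n : ℚ)⁻¹ h1
    rwa [← Int.cast_smul_eq_zsmul ℚ, smul_smul, inv_mul_cancel₀ (Int.cast_ne_zero.2 hn),
      one_smul] at h2

/-- Gram matrix.  Take a `ℤ`-basis `e` of `M` indexed by `Fin n` (`Submodule.IsLattice.rank'`, free), `A i j := B (e i) (e j)`.
The dual basis vectors (`B`-dual, `LinearMap.BilinForm.dualBasis` of `e.extendOfIsLattice ℚ`) lie in `M` by `sd`, which
gives an integer matrix `C` with `C * A = 1`, so `det A = ±1`, and `det A > 0`. -/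
theorem EU.gram (h : EU B M) {n : ℕ} (hn : finrank ℚ U = n) :
    ∃ (A : Matrix (Fin n) (Fin n) ℤ) (e : (Fin n → ℤ) ≃+ M), A.IsSymm ∧ A.det = 1 ∧
      ∀ x y, B (e x) (e y) = (x ⬝ᵥ A *ᵥ y : ℤ) := by
  have := h.lat
  have hr : finrank ℤ M = n := by
    rw [← hn, finrank, finrank, Submodule.IsLattice.rank' ℚ M]
  let b : Basis (Fin n) ℤ M := Module.finBasisOfFinrankEq ℤ M hr
  have hi := int_of_even h.symm h.even
  choose A hA using fun i j => hi _ (b i).2 _ (b j).2
  let e : (Fin n → ℤ) ≃+ M := b.equivFun.symm.toAddEquiv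
  have he : ∀ x, (e x : U) = ∑ i, (x i : ℚ) • (b i : U) := fun x => by
    change ((b.equivFun.symm x : M) : U) = _
    rw [Basis.equivFun_symm_apply, Submodule.coe_sum]
    simp only [Submodule.coe_smul, Int.cast_smul_eq_zsmul]
  have key : ∀ x y, B (e x) (e y) = (x ⬝ᵥ Matrix.of A *ᵥ y : ℤ) := fun x y => by
    rw [he, he]
    simp only [map_sum, map_smul, LinearMap.sum_apply, LinearMap.smul_apply, smul_eq_mul, hA,
      dotProduct, mulVec, Matrix.of_apply, Int.cast_sum, Int.cast_mul, Finset.mul_sum]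
    rw [Finset.sum_comm]
    refine Finset.sum_congr rfl fun i _ => Finset.sum_congr rfl fun j _ => by ring
  have hs : (Matrix.of A).IsSymm := by
    ext i j
    have := h.symm (b j) (b i)
    rw [hA, hA] at this
    exact_mod_cast this
  have hnd : B.Nondegenerate := by
    have h1 : ∀ x, (∀ y, B x y = 0) → x = 0 := fun x hx => by
      by_contra h0
      exact (h.pos x h0).ne' (hx x)
    exact ⟨h1, fun y hy => h1 y fun x => by rw [h.symm, hy]⟩
  have hd : ∀ i j, B (B.dualBasis hnd (b.extendOfIsLattice ℚ) i) (b j) = if j = i then 1 else 0 :=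
    fun i j => by
      rw [← LinearMap.BilinForm.apply_dualBasis_left hnd (b.extendOfIsLattice ℚ) i j,
        Basis.extendOfIsLattice_apply]
  have hm : ∀ i, B.dualBasis hnd (b.extendOfIsLattice ℚ) i ∈ M := fun i => h.sd _ fun y hy => by
    obtain ⟨y, hy'⟩ := e.surjective ⟨y, hy⟩
    have : B (B.dualBasis hnd (b.extendOfIsLattice ℚ) i) (e y) = y i := by
      rw [he]
      simp [map_sum, hd]
    rw [hy'] at this
    exact ⟨y i, this⟩
  have hC : Matrix.of (fun i => e.symm ⟨_, hm i⟩) * Matrix.of A = 1 := by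
    ext i j
    have h1 := key (e.symm ⟨_, hm i⟩) (Pi.single j 1)
    rw [e.apply_symm_apply, he] at h1
    simp only [map_sum, map_smul, hd, smul_eq_mul, mul_ite, mul_one, mul_zero,
      Finset.sum_ite_eq', Finset.mem_univ, if_true, mulVec_single_one] at h1
    have h2 : (Pi.single j 1 : Fin n → ℤ) i = e.symm ⟨_, hm i⟩ ⬝ᵥ (Matrix.of A).col j := by
      exact_mod_cast h1
    rw [Matrix.one_apply, ← Pi.single_apply j (1 : ℤ) i, h2]
    rfl
  have hu : IsUnit (Matrix.of A).det := by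
    have := congrArg Matrix.det hC
    rw [det_mul, det_one] at this
    exact IsUnit.of_mul_eq_one_right _ this
  refine ⟨Matrix.of A, e, hs, ?_, key⟩
  have hpos := Gram.det_pos hs (fun x hx => by
    have := h.pos (e x) (fun h0 => hx (e.injective (by rw [map_zero]; exact Subtype.ext h0)))
    rw [key] at this
    exact_mod_cast this) hu.ne_zero
  rcases Int.isUnit_iff.1 hu with h1 | h1
  · exact h1
  · omega

/-- Proof.  `CL.Theta.th_inv`: `th A s⁻¹ = (s ^ (1/2)) ^ n * th A s`, and `th A (s + I) = th A s` (even form).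
With `s = 1 - I` and `s = 1 + I`: `th (1 ± I) = th 1 ≠ 0`, `(1 - I)⁻¹ = (1 + I)⁻¹ + I`; so
`((1 - I)^(1/2))^n = ((1 + I)^(1/2))^n`, i.e. `exp (π I n / 4) = 1`. (E.g. `a = (1-I)^(1/2)`, `a' = (1+I)^(1/2)`,
`(a'/a)^2 = I`; `a'/a` is a primitive 8th root of unity.) -/
theorem EU.eight_dvd (h : EU B M) : 8 ∣ finrank ℚ U := by
  obtain ⟨A, e, hs, hd, key⟩ := h.gram rfl
  obtain ⟨hp, he⟩ := Gram.pos_even h key
  generalize finrank ℚ U = n at A e hs hd key hp he
  have P := CL.Theta.posDef_map hs hp hd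
  have per : ∀ s, CL.Theta.th A (s + Complex.I) = CL.Theta.th A s := fun s => by
    refine tsum_congr fun x => ?_
    obtain ⟨k, hk⟩ := he x
    rw [hk, Complex.exp_eq_exp_iff_exists_int]
    exact ⟨-k, by push_cast; ring⟩
  have h1 : CL.Theta.th A 1 ≠ 0 := by
    have hs := CL.Theta.summable_th P (s := 1) (by simp)
    have : CL.Theta.th A 1 = (∑' x : Fin n → ℤ, Real.exp (-Real.pi * (x ⬝ᵥ A *ᵥ x : ℤ)) : ℝ) := by
      simp [CL.Theta.th, Complex.ofReal_tsum]
    rw [this, Complex.ofReal_ne_zero]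
    refine (Summable.tsum_pos (hs.norm.congr fun x => ?_) (fun _ => (Real.exp_pos _).le) 0
      (Real.exp_pos _)).ne'
    simp [Complex.norm_exp]
  have e1 := CL.Theta.th_inv P hd (s := 1 - Complex.I) (by simp)
  have e2 := CL.Theta.th_inv P hd (s := 1 + Complex.I) (by simp)
  have n1 : (1 - Complex.I : ℂ) ≠ 0 := by simp [Complex.ext_iff]
  have n2 : (1 + Complex.I : ℂ) ≠ 0 := by simp [Complex.ext_iff]
  have e3 : (1 - Complex.I : ℂ)⁻¹ = (1 + Complex.I)⁻¹ + Complex.I := by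
    field_simp
    linear_combination (Complex.I - 1 + 1) * Complex.I_sq
  rw [e3, per, e2, per, ← per (1 - Complex.I), sub_add_cancel] at e1
  have e4 := mul_right_cancel₀ h1 e1
  have s1 : ((1 - Complex.I) ^ (1 / 2 : ℂ)) ^ 2 = 1 - Complex.I := by
    rw [← Complex.cpow_nat_mul]; norm_num
  have s2 : ((1 + Complex.I) ^ (1 / 2 : ℂ)) ^ 2 = 1 + Complex.I := by
    rw [← Complex.cpow_nat_mul]; norm_num
  generalize (1 - Complex.I) ^ (1 / 2 : ℂ) = a at e4 s1
  generalize (1 + Complex.I) ^ (1 / 2 : ℂ) = a' at e4 s2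
  have a0 : a ≠ 0 := fun e => n1 (by rw [← s1, e]; norm_num)
  have r2 : (a' / a) ^ 2 = Complex.I := by
    rw [div_pow, s1, s2, div_eq_iff n1]
    linear_combination Complex.I_sq
  have rn : (a' / a) ^ n = 1 := by rw [div_pow, e4, div_self (pow_ne_zero _ a0)]
  generalize a' / a = r at r2 rn
  have r4 : r ^ 4 = -1 := by rw [show 4 = 2 * 2 from rfl, pow_mul, r2, Complex.I_sq]
  have ho : orderOf r = 2 ^ (2 + 1) := orderOf_eq_prime_pow
    (by rw [show 2 ^ 2 = 4 from rfl, r4]; norm_num)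
    (by rw [show 2 ^ (2 + 1) = 4 * 2 from rfl, pow_mul, r4]; norm_num)
  have := orderOf_dvd_of_pow_eq_one rn
  rwa [ho] at this

/-- `gram`, S1632 and S0406. -/
theorem EU.leech (h : EU B M) (hn : finrank ℚ U = 24) (h2 : ∀ x ∈ M, B x x ≠ 2) :
    ∃ φ : M ≃+ Cfsg.leechLattice, ∀ x y : M,
      (Cfsg.dotInt ((φ x : Cfsg.leechLattice) : Cfsg.GolayPt → ℤ) (φ y : Cfsg.leechLattice) : ℚ) = 8 * B x y := by
  obtain ⟨A, e, hs, hd, key⟩ := h.gram hn
  obtain ⟨hp, he⟩ := Gram.pos_even h key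
  have h2' : ∀ x, x ⬝ᵥ A *ᵥ x ≠ 2 := fun x hx => h2 _ (e x).2 (by rw [key, hx]; norm_num)
  obtain ⟨h4, h6, h8⟩ := Cfsg.Agent.S1632.result A hs hp he hd h2'
  obtain ⟨f, hf⟩ := Cfsg.Agent.S0406.result A hs hp he h2' h4 h6 h8
  have hq : ∀ x : M, (Cfsg.sqNorm ((f (e.symm x) : Cfsg.leechLattice) : Cfsg.GolayPt → ℤ) : ℚ) =
      8 * B x x := fun x => by
    rw [hf, Int.cast_mul, ← key, e.apply_symm_apply]
    norm_num
  refine ⟨e.symm.trans f, fun x y => ?_⟩
  have h1 := hq (x + y)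
  have pol : ∀ u v : Cfsg.GolayPt → ℤ,
      Cfsg.sqNorm (u + v) = Cfsg.sqNorm u + 2 * Cfsg.dotInt u v + Cfsg.sqNorm v := fun u v => by
    simp only [Cfsg.sqNorm, Cfsg.dotInt, Pi.add_apply, Finset.mul_sum, ← Finset.sum_add_distrib]
    exact Finset.sum_congr rfl fun i _ => by ring
  rw [map_add, map_add, AddSubgroup.coe_add, pol] at h1
  push_cast at h1
  rw [hq, hq] at h1
  simp only [map_add, LinearMap.add_apply] at h1
  rw [h.symm y x] at h1
  change (Cfsg.dotInt ((f (e.symm x) : Cfsg.leechLattice) : Cfsg.GolayPt → ℤ)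
    (f (e.symm y) : Cfsg.leechLattice) : ℚ) = _
  linarith

end CL.F23
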