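/-
S3355: an integral model exists.
-/
import Cfsg.Agent.REC.F23.Defs

set_option autoImplicit false

namespace CL.F23

open Matrix Module

theorem toQ_mul {r : ℕ} (A B : Matrix (Fin r) (Fin r) ℤ) : toQ (A * B) = toQ A * toQ B :=
  Matrix.map_mul (f := Int.castRingHom ℚ)

theorem toQ_inj {r : ℕ} : Function.Injective (toQ : Matrix (Fin r) (Fin r) ℤ → _) :=
  Matrix.map_injective Int.cast_injective

theorem toQ_one {r : ℕ} : toQ (1 : Matrix (Fin r) (Fin r) ℤ) = 1 := Matrix.map_one _ Int.cast_zero Int.cast_one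

theorem toQ_mulVec {r : ℕ} (A : Matrix (Fin r) (Fin r) ℤ) (x : Fin r → ℤ) :
    toQ A *ᵥ (fun i => (x i : ℚ)) = fun i => ((A *ᵥ x) i : ℚ) := by
  ext i; simp [mulVec, dotProduct]

theorem toQ_form {r : ℕ} (A : Matrix (Fin r) (Fin r) ℤ) (x y : Fin r → ℤ) :
    (fun i => (x i : ℚ)) ⬝ᵥ toQ A *ᵥ (fun i => (y i : ℚ)) = (x ⬝ᵥ A *ᵥ y : ℤ) := by
  simp [toQ_mulVec, dotProduct]

theorem dotProduct_self_nonneg' {r : ℕ} (x : Fin r → ℚ) : 0 ≤ x ⬝ᵥ x :=
  Finset.sum_nonneg fun i _ => mul_self_nonneg (x i)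

/-- transport of a rational representation to a lattice with basis matrix `P` -/
theorem mk_mod {G : Type*} [Group G] (ρ : G →* Matrix (Fin 23) (Fin 23) ℚ) (inj : Function.Injective ρ)
    (irr : ∀ W : Submodule ℚ V, (∀ g, ∀ w ∈ W, ρ g *ᵥ w ∈ W) → W = ⊥ ∨ W = ⊤) (P : Matrix (Fin 23) (Fin 23) ℚ)
    (hP : IsUnit P) (hs : ∀ g, ∃ s : MZ, ρ g * P = P * toQ s) (b : Matrix (Fin 23) (Fin 23) ℚ) (symm : b.IsSymm)
    (pos : ∀ x : V, x ≠ 0 → 0 < x ⬝ᵥ b *ᵥ x) (inv : ∀ g, (ρ g)ᵀ * b * ρ g = b) (B : MZ) (c : ℚ) (hc : 0 < c)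
    (hB : Pᵀ * b * P = c • toQ B) : ∃ σ : G →* MZ, IsMod σ B ∧ ∀ g, ρ g * P = P * toQ (σ g) := by
  choose s hs using hs
  have inj' : ∀ {A A' : MZ}, c • toQ A = c • toQ A' → A = A' := fun e => toQ_inj (smul_right_injective _ hc.ne' e)
  refine ⟨⟨⟨s, toQ_inj (hP.mul_left_cancel (by rw [← hs, map_one, toQ_one, one_mul, mul_one]))⟩, fun g h =>
    toQ_inj (hP.mul_left_cancel (by rw [← hs, map_mul, toQ_mul, mul_assoc, hs, ← mul_assoc, hs, mul_assoc]))⟩,
    ⟨fun g h e => inj (hP.mul_right_cancel (by rw [hs, hs]; exact congrArg (P * toQ ·) e)), fun W hW => ?_, inj' ?_,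
      fun x hx => ?_, fun g => inj' ?_⟩, hs⟩
  · have := irr (W.map (P.toLinearEquiv' hP.invertible : V →ₗ[ℚ] V)) (by
      rintro g _ ⟨w, hw, rfl⟩
      exact ⟨_, hW g w hw, by simp [hs]⟩)
    rwa [Submodule.map_eq_bot_iff, Submodule.map_eq_top_iff] at this
  · change c • (toQ B)ᵀ = _
    rw [← transpose_smul, ← hB, transpose_mul, transpose_mul, transpose_transpose, symm.eq, mul_assoc]
  · have := pos (P *ᵥ fun i => (x i : ℚ)) fun e => hx (by
      have := mulVec_injective_iff_isUnit.2 hP (e.trans (mulVec_zero P).symm)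
      ext i; simpa using congrFun this i)
    rw [← vecMul_transpose P, ← dotProduct_mulVec, vecMul_transpose, mulVec_mulVec, mulVec_mulVec, hB, smul_mulVec,
      dotProduct_smul, toQ_form] at this
    exact_mod_cast (mul_pos_iff_of_pos_left hc).1 this
  · change c • toQ ((s g)ᵀ * B * s g) = _
    rw [toQ_mul, toQ_mul, ← smul_mul_assoc, ← mul_smul_comm, ← hB]
    change (toQ (s g))ᵀ * _ * _ = _
    rw [mul_assoc, mul_assoc, ← hs, ← mul_assoc, ← mul_assoc, ← mul_assoc, ← transpose_mul, ← hs, transpose_mul]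
    conv_rhs => rw [← inv g]
    simp only [mul_assoc]

theorem exists_int_smul {r : ℕ} (x : Fin r → ℚ) :
    ∃ (N : ℤ) (y : Fin r → ℤ), N ≠ 0 ∧ (N : ℚ) • x = fun i => (y i : ℚ) := by
  obtain ⟨N, hN⟩ := IsLocalization.exist_integer_multiples_of_finite (nonZeroDivisors ℤ) x
  choose y hy using hN
  exact ⟨N, y, nonZeroDivisors.coe_ne_zero N, funext fun i => by simpa using (hy i).symm⟩

namespace IsMod
variable {G : Type*} [Group G] {σ : G →* MZ} {B : MZ} (h : IsMod σ B)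
include h

theorem posQ (x : V) (hx : x ≠ 0) : 0 < x ⬝ᵥ toQ B *ᵥ x := by
  obtain ⟨N, y, hN, e⟩ := exists_int_smul x
  have hN' : (N : ℚ) ≠ 0 := Int.cast_ne_zero.2 hN
  have : (0 : ℚ) < (y ⬝ᵥ B *ᵥ y : ℤ) := Int.cast_pos.2 (h.pos y fun l => smul_ne_zero hN' hx (by
    rw [e, l]; ext; simp))
  rw [← toQ_form, ← e, mulVec_smul, smul_dotProduct, dotProduct_smul, smul_smul] at this
  exact (mul_pos_iff_of_pos_left (mul_self_pos.2 hN')).1 this

theorem unitQ : IsUnit (toQ B) := by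
  rw [isUnit_iff_isUnit_det, isUnit_iff_ne_zero, Ne, ← exists_mulVec_eq_zero_iff]
  rintro ⟨x, hx, e⟩
  simpa [e] using h.posQ x hx

theorem symmQ : (toQ B)ᵀ = toQ B := congrArg toQ h.symm

theorem invQ (g : G) : (toQ (σ g))ᵀ * toQ B * toQ (σ g) = toQ B := by
  have := congrArg toQ (h.inv g)
  rwa [toQ_mul, toQ_mul] at this

end IsMod

/-- An integral model exists.
Proof.  `L := span ℤ {ρ g *ᵥ e_i}` (finite set as `G` is finite) is `G`-invariant and `L.IsLattice ℚ`
(`g = 1` gives the standard basis).  `Submodule.IsLattice.finrank_of_pi` gives a basis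
`e : Basis (Fin 23) ℤ L` (`Module.finBasisOfFinrankEq`), `e.extendOfIsLattice ℚ` is a `ℚ`-basis of `V`.
`σ g :=` matrix of the restriction of `ρ g` to `L` (`LinearMap.toMatrix e e`, a monoid hom; or: `P` = matrix with
columns `e j`, invertible over `ℚ`, `P⁻¹ * ρ g * P` has integer entries).
`b0 x y := ∑ g, (ρ g *ᵥ x) ⬝ᵥ (ρ g *ᵥ y)` is symmetric, positive definite and invariant; `B i j := N * b0 (e i) (e j)`
with a common denominator `N > 0`.  Irreducibility is transported along `x ↦ P *ᵥ x`. -/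
theorem exists_mod {G : Type*} [Group G] [Finite G]
    (ρ : G →* GL (Fin 23) ℚ) (hρ : Function.Injective ρ)
    (hirr : ∀ W : Submodule ℚ (Fin 23 → ℚ), (∀ g : G, ∀ w ∈ W,
      ((ρ g : GL (Fin 23) ℚ) : Matrix (Fin 23) (Fin 23) ℚ).mulVec w ∈ W) → W = ⊥ ∨ W = ⊤) :
    ∃ (σ : G →* MZ) (B : MZ), IsMod σ B := by
  classical
  have := Fintype.ofFinite G
  let r : G →* Matrix (Fin 23) (Fin 23) ℚ := (Units.coeHom _).comp ρ
  let L : Submodule ℤ V := Submodule.span ℤ (Set.range fun p : G × Fin 23 => r p.1 *ᵥ Pi.single p.2 1)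
  have : L.IsLattice ℚ := ⟨Submodule.fg_span (Set.finite_range _), eq_top_iff.2 (by
    rw [← (Pi.basisFun ℚ (Fin 23)).span_eq]
    refine Submodule.span_mono ?_
    rintro _ ⟨i, rfl⟩
    exact Submodule.subset_span ⟨(1, i), by simp only [map_one, one_mulVec, Pi.basisFun_apply]⟩)⟩
  have inv : ∀ g, ∀ x ∈ L, r g *ᵥ x ∈ L := fun g x hx => by
    induction hx using Submodule.span_induction with
    | mem x hx =>
      obtain ⟨p, rfl⟩ := hx
      exact Submodule.subset_span ⟨(g * p.1, p.2), by simp only [map_mul, mulVec_mulVec]⟩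
    | zero => simp
    | add x y _ _ hx hy => rw [mulVec_add]; exact L.add_mem hx hy
    | smul a x _ hx => rw [mulVec_smul]; exact L.smul_mem a hx
  let e := Module.finBasisOfFinrankEq ℤ L ((Submodule.IsLattice.finrank_of_pi ℚ L).trans (Fintype.card_fin 23))
  let P := (Pi.basisFun ℚ (Fin 23)).toMatrix (e.extendOfIsLattice ℚ)
  have eP : ∀ i j, P i j = (e j : V) i := fun i j => by simp [P, Basis.toMatrix_apply]
  have := (Pi.basisFun ℚ (Fin 23)).invertibleToMatrix (e.extendOfIsLattice ℚ)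
  let b := ∑ g, (r g)ᵀ * r g
  obtain ⟨σ, h, -⟩ := mk_mod r (Units.val_injective.comp hρ) hirr P (isUnit_of_invertible P) (fun g => ⟨of fun i j =>
      e.repr ⟨_, inv g _ (e j).2⟩ i, by
      ext i j
      have := congrFun (congrArg Subtype.val (e.sum_repr ⟨_, inv g _ (e j).2⟩)) i
      simp only [mul_apply, eP, map_apply, of_apply]
      simp only [Submodule.coe_sum, Submodule.coe_smul, Finset.sum_apply, Pi.smul_apply, zsmul_eq_mul] at this
      exact this.symm.trans (Finset.sum_congr rfl fun k _ => mul_comm _ _)⟩) b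
    (by simp only [b, Matrix.IsSymm, transpose_sum, transpose_mul, transpose_transpose]) (fun x hx => by
      simp only [b, sum_mulVec, dotProduct_sum, ← mulVec_mulVec, dotProduct_mulVec x, vecMul_transpose]
      refine Finset.sum_pos' (fun g _ => dotProduct_self_nonneg' _) ⟨1, Finset.mem_univ _, ?_⟩
      rw [map_one, one_mulVec]
      exact (dotProduct_self_nonneg' x).lt_of_ne' (mt dotProduct_self_eq_zero.1 hx)) (fun h => by
      simp only [b, Finset.mul_sum, Finset.sum_mul]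
      exact Fintype.sum_equiv (Equiv.mulRight h) _ _ fun g => by
        simp only [Equiv.coe_mulRight, map_mul, transpose_mul, Matrix.mul_assoc])
    (Pᵀ * b * P).num _ (by have := (Pᵀ * b * P).den_ne_zero; positivity) (Pᵀ * b * P).inv_denom_smul_num.symm
  exact ⟨σ, _, h⟩

end CL.F23
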