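/-
S3355: passing to an invariant sublattice with a rescaled form.
-/
import Cfsg.Agent.REC.F23.ModA
import Cfsg.Agent.REC.F23.Gram

set_option autoImplicit false

namespace CL.F23

open Matrix Module

variable {G : Type*} [Group G] {σ : G →* MZ} {B : MZ}

/-- Change of lattice.
Proof.  `R` has finite index, so it is free of rank 23 (`Submodule.finrank_eq...`/ `R ⊇ index • ⊤`); take a basis
`e : Basis (Fin 23) ℤ R`, `P i j := (e j : Fin 23 → ℤ) i`; `|det P| = index` is
`AddSubgroup.index_eq_natAbs_det` / `Submodule.natAbs_det_basis_change`.  `σ' g :=` matrix of the restriction of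
`σ g` to `R`, `B' i j := (e i ⬝ᵥ B *ᵥ e j) / c`.  `toQ P` is invertible; transport injectivity and irreducibility
along `x ↦ toQ P *ᵥ x`. -/
theorem IsMod.change (h : IsMod σ B) (R : Submodule ℤ (Fin 23 → ℤ)) (hR : R.toAddSubgroup.index ≠ 0)
    (hinv : ∀ g, ∀ x ∈ R, σ g *ᵥ x ∈ R) (c : ℕ) (hc : 0 < c)
    (hdiv : ∀ x ∈ R, ∀ y ∈ R, (c : ℤ) ∣ x ⬝ᵥ B *ᵥ y) :
    ∃ (σ' : G →* MZ) (B' P : MZ), IsMod σ' B' ∧ (∀ x, x ∈ R ↔ ∃ y, x = P *ᵥ y) ∧
      (∀ g, σ g * P = P * σ' g) ∧ Pᵀ * B * P = (c : ℤ) • B' ∧ P.det.natAbs = R.toAddSubgroup.index := by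
  have fin : Finite ((Fin 23 → ℤ) ⧸ R) := Nat.finite_of_card_ne_zero hR
  let e := Module.finBasisOfFinrankEq ℤ R ((R.finiteQuotient_iff.1 fin).trans (finrank_fin_fun ℤ))
  let P : MZ := of fun i j => (e j : Fin 23 → ℤ) i
  have hP : ∀ y, P *ᵥ y = (∑ j, y j • e j : R) := fun y => by
    ext i
    simp [P, mulVec, dotProduct, mul_comm]
  have mem : ∀ x, x ∈ R ↔ ∃ y, x = P *ᵥ y := fun x => ⟨fun hx => ⟨e.repr ⟨x, hx⟩, by rw [hP, e.sum_repr]⟩, by
    rintro ⟨y, rfl⟩
    rw [hP]; exact SetLike.coe_mem _⟩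
  have det : P.det.natAbs = R.toAddSubgroup.index := by
    refine Eq.trans ?_ (Submodule.natAbs_det_basis_change (Pi.basisFun ℤ (Fin 23)) R e)
    rw [Pi.basisFun_det_apply, ← det_transpose]
    rfl
  have col : ∀ j, P *ᵥ Pi.single j 1 ∈ R := fun j => (mem _).2 ⟨_, rfl⟩
  choose s hs using fun g j => (mem _).1 (hinv g _ (col j))
  choose b hb using fun i j => hdiv _ (col i) _ (col j)
  have eB : Pᵀ * B * P = (c : ℤ) • of b := by
    ext i j
    have := hb i j
    rw [← vecMul_transpose P, ← dotProduct_mulVec, mulVec_mulVec, mulVec_mulVec] at this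
    simpa using this
  obtain ⟨σ', m, hσ⟩ := mk_mod ((Int.castRingHom ℚ).mapMatrix.toMonoidHom.comp σ) (toQ_inj.comp h.inj) h.irr (toQ P) (by
      rw [isUnit_iff_isUnit_det, isUnit_iff_ne_zero, show (toQ P).det = (P.det : ℚ) from
        ((Int.castRingHom ℚ).map_det P).symm, Int.cast_ne_zero, ← Int.natAbs_ne_zero, det]
      exact hR) (fun g => ⟨(of (s g))ᵀ, by
      refine (toQ_mul _ _).symm.trans ((congrArg toQ ?_).trans (toQ_mul _ _))
      ext i j
      have := congrFun (hs g j) i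
      rw [mulVec_mulVec] at this
      simpa [mul_apply, mulVec, dotProduct, Pi.single_apply] using this⟩) (toQ B) h.symmQ h.posQ h.invQ (of b) c
    (by exact_mod_cast hc) (by
      have := congrArg toQ eB
      rw [toQ_mul, toQ_mul] at this
      refine this.trans ?_
      ext i j
      simp)
  exact ⟨σ', _, P, m, mem, fun g => toQ_inj ((toQ_mul _ _).trans ((hσ g).trans (toQ_mul _ _).symm)), eB, det⟩

/-- the determinant of a positive definite integral form is positive (pass to `ℝ` as in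
`CL.Theta.posDef_map`, or diagonalise over `ℚ`) -/
theorem IsMod.det_pos (h : IsMod σ B) : 0 < B.det := by
  refine Gram.det_pos h.symm h.pos fun e => ?_
  obtain ⟨x, hx, e⟩ := exists_mulVec_eq_zero_iff.2 e
  simpa [e] using h.pos x hx

end CL.F23
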