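/-
S3355: basic facts in the main setting.
-/
import Cfsg.Agent.REC.F23.Defs

set_option autoImplicit false

namespace CL.F23

open Matrix Module

variable {G : Type*} [Group G] {ρ : G →* (V →ₗ[ℚ] V)} {b : LinearMap.BilinForm ℚ V} {τ : G}
  {L : Submodule ℤ V} {u x1 : V} {m : ℤ}

/-- the orthogonal projection on `u^⊥` -/
noncomputable def pr (b : LinearMap.BilinForm ℚ V) (u : V) (m : ℤ) (x : V) : V := x - (b u x / (23 * m)) • u

theorem zsmul_mem' {U : Type} [AddCommGroup U] [Module ℚ U] {K : Submodule ℤ U} (n : ℤ) {x : U} (hx : x ∈ K) :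
    (n : ℚ) • x ∈ K := by
  rw [Int.cast_smul_eq_zsmul]
  exact K.smul_mem n hx

namespace St

theorem m_ne (h : St ρ b τ L u x1 m) : (m : ℚ) ≠ 0 := Int.cast_ne_zero.2 h.pos.ne'

theorem tu (h : St ρ b τ L u x1 m) : ρ τ u = u := (h.fix u).2 ⟨1, (one_smul _ _).symm⟩

theorem pow23 (h : St ρ b τ L u x1 m) : ρ τ ^ 23 = 1 := by
  have e := pow_orderOf_eq_one τ
  rw [h.ord] at e
  rw [← map_pow, e, map_one]

theorem pow_u (h : St ρ b τ L u x1 m) (i : ℕ) : (ρ τ ^ i) u = u := by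
  induction i with
  | zero => rfl
  | succ i ih => rw [pow_succ, Module.End.mul_apply, h.tu, ih]

theorem iso_pow (h : St ρ b τ L u x1 m) (i : ℕ) (x y : V) : b ((ρ τ ^ i) x) ((ρ τ ^ i) y) = b x y := by
  rw [← map_pow]
  exact h.ctx.inv _ x y

theorem bu_pow (h : St ρ b τ L u x1 m) (i : ℕ) (x : V) : b u ((ρ τ ^ i) x) = b u x := by
  conv_lhs => rw [← h.pow_u i]
  exact h.iso_pow i u x

theorem pow_mem (h : St ρ b τ L u x1 m) (i : ℕ) {x : V} (hx : x ∈ L) : (ρ τ ^ i) x ∈ L := by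
  rw [← map_pow]
  exact h.inv _ x hx

theorem sum_pow (h : St ρ b τ L u x1 m) (x : V) :
    ∑ i ∈ Finset.range 23, (ρ τ ^ i) x = (b u x / m) • u := by
  have h1 : ρ τ (∑ i ∈ Finset.range 23, (ρ τ ^ i) x) = ∑ i ∈ Finset.range 23, (ρ τ ^ i) x := by
    rw [map_sum]
    have e : ∀ i, ρ τ ((ρ τ ^ i) x) = (ρ τ ^ (i + 1)) x := fun i => by rw [pow_succ', Module.End.mul_apply]
    simp only [e]
    have e1 := Finset.sum_range_succ' (fun i => (ρ τ ^ i) x) 23
    have e2 := Finset.sum_range_succ (fun i => (ρ τ ^ i) x) 23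
    rw [h.pow23] at e2
    rw [pow_zero] at e1
    exact add_right_cancel (e1.symm.trans e2)
  obtain ⟨c, hc⟩ := (h.fix _).1 h1
  have h2 := congrArg (b u) hc
  simp only [map_sum, h.bu_pow, Finset.sum_const, Finset.card_range, map_smul, h.uu, smul_eq_mul,
    nsmul_eq_mul] at h2
  rw [hc]
  congr 1
  have := h.m_ne
  field_simp
  push_cast at h2
  linarith

theorem eq_zero_of_fix (h : St ρ b τ L u x1 m) {i : ℕ} (hi : ¬ 23 ∣ i) {x : V} (hx : b u x = 0)
    (hf : (ρ τ ^ i) x = x) : x = 0 := by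
  have hc : Nat.Coprime i (orderOf τ) := by
    rw [h.ord]
    exact ((Nat.Prime.coprime_iff_not_dvd (by norm_num)).2 hi).symm
  obtain ⟨k, hk⟩ := exists_pow_eq_self_of_coprime hc
  have h1 : ∀ k : ℕ, ((ρ τ ^ i) ^ k) x = x := fun k => by
    induction k with
    | zero => rfl
    | succ k ih => rw [pow_succ, Module.End.mul_apply, hf, ih]
  have h2 := h1 k
  rw [← map_pow, ← map_pow, hk] at h2
  obtain ⟨c, rfl⟩ := (h.fix _).1 h2
  rw [map_smul, h.uu, smul_eq_mul] at hx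
  have := h.m_ne
  rcases mul_eq_zero.1 hx with rfl | h3
  · simp
  · simp_all

theorem bu_pr (h : St ρ b τ L u x1 m) (x : V) : b u (pr b u m x) = 0 := by
  have := h.m_ne
  simp only [pr, map_sub, map_smul, h.uu, smul_eq_mul]
  field_simp
  ring

theorem pr_left (h : St ρ b τ L u x1 m) (x : V) {y : V} (hy : b u y = 0) : b (pr b u m x) y = b x y := by
  have := h.m_ne
  simp [pr, hy]

theorem pr_pr (h : St ρ b τ L u x1 m) (x y : V) :
    b (pr b u m x) (pr b u m y) = b x y - b u x * b u y / (23 * m) := by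
  rw [h.pr_left x (h.bu_pr y), pr, map_sub, map_smul, h.ctx.symm x u, smul_eq_mul]
  ring

theorem pr_pow (h : St ρ b τ L u x1 m) (i : ℕ) (x : V) :
    (ρ τ ^ i) (pr b u m x) - pr b u m x = (ρ τ ^ i) x - x := by
  simp only [pr, map_sub, map_smul, h.pow_u]
  abel

theorem pr23 (h : St ρ b τ L u x1 m) {x : V} (hx : x ∈ L) : (23 : ℚ) • pr b u m x ∈ L := by
  obtain ⟨k, hk⟩ := h.dvd x hx
  have := h.m_ne
  have e : (23 : ℚ) • pr b u m x = ((23 : ℤ) : ℚ) • x - (k : ℚ) • u := by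
    rw [pr, smul_sub, smul_smul, hk]
    congr 2
    field_simp
  rw [e]
  exact L.sub_mem (zsmul_mem' _ hx) (zsmul_mem' _ h.u_mem)

/-- `y - τ^i y` (`0 < i < 23`) is a non-zero vector of `L ∩ u^⊥`, of norm `≥ 4`; sum over `i`. -/
theorem min44 (h : St ρ b τ L u x1 m) (h2 : NoRoot b L u) {y : V} (hy : b u y = 0) (hy0 : y ≠ 0)
    (ht : ∀ i : ℕ, (ρ τ ^ i) y - y ∈ L) : 44 / 23 ≤ b y y := by
  have h1 : ∀ i ∈ Finset.range 22, b y ((ρ τ ^ (i + 1)) y) ≤ b y y - 2 := fun i hi => by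
    have hi' := Finset.mem_range.1 hi
    have hne : (ρ τ ^ (i + 1)) y - y ≠ 0 := fun e =>
      hy0 (h.eq_zero_of_fix (i := i + 1) (by omega) hy (sub_eq_zero.1 e))
    have hp := h.ctx.pos _ hne
    obtain ⟨n, hn⟩ := h.even _ (ht (i + 1))
    have h3 := h2 _ (ht (i + 1)) (by rw [map_sub, h.bu_pow, sub_self])
    have e : b ((ρ τ ^ (i + 1)) y - y) ((ρ τ ^ (i + 1)) y - y) = 2 * b y y - 2 * b y ((ρ τ ^ (i + 1)) y) := by
      simp only [map_sub, LinearMap.sub_apply, h.iso_pow, h.ctx.symm ((ρ τ ^ (i + 1)) y) y]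
      ring
    have hn0 : 0 < n := by
      have : (0 : ℚ) < n := by linarith
      exact_mod_cast this
    have hn1 : n ≠ 1 := by
      rintro rfl
      apply h3
      push_cast at hn
      linarith
    have : (2 : ℚ) ≤ n := by exact_mod_cast (by omega : 2 ≤ n)
    linarith
  have h3 := Finset.sum_le_sum h1
  have h4 := congrArg (b y) (h.sum_pow y)
  rw [hy, zero_div, zero_smul, map_zero, Finset.sum_range_succ', map_add, map_sum, pow_zero,
    Module.End.one_apply] at h4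
  simp only [Finset.sum_const, Finset.card_range, nsmul_eq_mul] at h3
  push_cast at h3
  linarith

theorem split (h : St ρ b τ L u x1 m) {x : V} (hx : x ∈ L) :
    ∃ k : ℤ, b u x = k * m ∧ x - (k : ℚ) • x1 ∈ L ∧ b u (x - (k : ℚ) • x1) = 0 := by
  obtain ⟨k, hk⟩ := h.dvd x hx
  refine ⟨k, hk, L.sub_mem hx (zsmul_mem' _ h.x1_mem), ?_⟩
  rw [map_sub, map_smul, hk, h.ux1, smul_eq_mul, sub_self]

/-- the dual of `L ∩ u^⊥` in `u^⊥` is generated by `L ∩ u^⊥` and `pr x1` -/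
theorem dual0 (h : St ρ b τ L u x1 m) {y : V} (hy : b u y = 0) (hd : ∀ x ∈ L, b u x = 0 → IsZ (b y x)) :
    ∃ j : ℤ, y - (j : ℚ) • pr b u m x1 ∈ L := by
  have hm := h.m_ne
  obtain ⟨a, ha⟩ := hd _ (h.pr23 h.x1_mem) (by rw [map_smul, h.bu_pr, smul_zero])
  obtain ⟨n, hn⟩ := h.int _ h.x1_mem _ h.x1_mem
  have hc : IsCoprime m 23 :=
    ((Int.prime_iff_natAbs_prime.2 (by norm_num) : Prime (23 : ℤ)).coprime_iff_not_dvd.2 h.n23).symm
  obtain ⟨s, t, hst⟩ := hc
  have hst' : (s : ℚ) * m + t * 23 = 1 := by exact_mod_cast hst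
  have e1 : b y x1 = a / 23 := by
    rw [map_smul, h.ctx.symm, h.pr_left _ hy, h.ctx.symm, smul_eq_mul] at ha
    linarith
  have e2 : b (pr b u m x1) x1 = n - m / 23 := by
    rw [pr, map_sub, map_smul, LinearMap.sub_apply, LinearMap.smul_apply, hn, h.ux1, smul_eq_mul]
    field_simp
  refine ⟨-a * s, h.p2 _ (by rw [map_sub, map_smul, hy, h.bu_pr, smul_zero, sub_zero]) fun x hx => ?_⟩
  obtain ⟨k, -, h1, h2⟩ := h.split hx
  obtain ⟨c, hc⟩ := hd _ h1 h2
  obtain ⟨d, hd'⟩ := h.int _ h.x1_mem _ h1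
  rw [← h.pr_left _ h2] at hd'
  refine ⟨c + k * a * t + a * s * d + a * s * k * n, ?_⟩
  simp only [map_sub, map_smul, smul_eq_mul, LinearMap.sub_apply, LinearMap.smul_apply, e1, e2] at hc hd' ⊢
  push_cast
  linear_combination hc + a * s * hd' - k * a / 23 * hst'

/-- `L* = L + ℤ u/m` -/
theorem dual_iff (h : St ρ b τ L u x1 m) (x : V) : Dual b L x ↔ ∃ a : ℤ, x - ((a : ℚ) / m) • u ∈ L := by
  have hm := h.m_ne
  constructor
  · intro hx
    obtain ⟨j, hj⟩ := h.dual0 (h.bu_pr x) fun z hz hz0 => by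
      rw [h.pr_left _ hz0]
      exact hx z hz
    obtain ⟨c, hc⟩ := hx _ h.x1_mem
    obtain ⟨d, hd⟩ := h.int _ hj _ h.x1_mem
    obtain ⟨n, hn⟩ := h.int _ h.x1_mem _ h.x1_mem
    refine ⟨c - d - j * n, ?_⟩
    convert L.add_mem hj (zsmul_mem' j h.x1_mem) using 1
    simp only [pr, map_sub, map_smul, smul_eq_mul, LinearMap.sub_apply, LinearMap.smul_apply, h.ux1, hc, hn] at hd ⊢
    have e : (((c - d - j * n : ℤ) : ℚ) / m) = b u x / (23 * m) - j * (m / (23 * m)) := by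
      push_cast
      rw [← hd]
      field_simp
      ring
    rw [e]
    module
  · rintro ⟨a, ha⟩ y hy
    obtain ⟨k, hk⟩ := h.dvd y hy
    obtain ⟨c, hc⟩ := h.int _ ha _ hy
    refine ⟨c + a * k, ?_⟩
    simp only [map_sub, map_smul, smul_eq_mul, LinearMap.sub_apply, LinearMap.smul_apply, hk] at hc
    push_cast
    rw [← hc]
    field_simp
    ring

end St

end CL.F23
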