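/-
S3355: the unimodular overlattice of rank 24 and the action of G on it.
-/
import Cfsg.Agent.REC.F23.StB
import Cfsg.Agent.REC.F23.Gram

set_option autoImplicit false

namespace CL.F23

open Matrix Module

variable {G : Type*} [Group G] {ρ : G →* (V →ₗ[ℚ] V)} {b : LinearMap.BilinForm ℚ V} {τ : G}
  {L : Submodule ℤ V} {u x1 : V} {m : ℤ}

theorem EX.ms {s : ℤ} (hs : MS m s) : ∃ w α β : ℤ, 23 + s ^ 2 = 2 * m * w ∧ α * s + β * m = 1 := by
  rcases hs with ⟨rfl, rfl⟩ | ⟨rfl, rfl⟩ | ⟨rfl, rfl⟩ | ⟨rfl, rfl⟩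
  · exact ⟨3, 1, 0, by norm_num, by norm_num⟩
  · exact ⟨2, 1, 0, by norm_num, by norm_num⟩
  · exact ⟨2, 5, -2, by norm_num, by norm_num⟩
  · exact ⟨2, 3, -1, by norm_num, by norm_num⟩

theorem EX.zs {n : ℤ} {x : V} (hx : x ∈ L) : (n : ℚ) • x ∈ L := by
  rw [Int.cast_smul_eq_zsmul]; exact L.smul_mem n hx

theorem EX.inl (s : ℤ) {x : V} (hx : x ∈ L) : (x, (0 : ℚ)) ∈ eLat L u m s :=
  ⟨0, by simpa using hx, by simpa using IsZ.zero⟩

theorem EX.inr (s : ℤ) (c : ℤ) : ((0 : V), (c : ℚ)) ∈ eLat L u m s :=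
  ⟨0, by simp, by simpa using IsZ.int c⟩

theorem EX.glue (s : ℤ) : (((1 : ℚ) / m) • u, (s : ℚ) / m) ∈ eLat L u m s :=
  ⟨1, by simp, by simpa using IsZ.zero⟩

/-- normal form of an element of `eLat` -/
theorem EX.nf {s : ℤ} {p : V × ℚ} (hp : p ∈ eLat L u m s) :
    ∃ (x : V) (a c : ℤ), x ∈ L ∧ p = (x + ((a : ℚ) / m) • u, (a : ℚ) * s / m + c) := by
  obtain ⟨a, h1, c, h2⟩ := hp
  refine ⟨_, a, c, h1, Prod.ext ?_ ?_⟩
  · simp
  · simp only; linarith

theorem EX.dvd_of_mem (h : St ρ b τ L u x1 m) {a : ℤ} (ha : ((a : ℚ) / m) • u ∈ L) : m ∣ a := by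
  obtain ⟨k, hk⟩ := h.dvd _ ha
  have hm := h.m_ne
  rw [map_smul, h.uu, smul_eq_mul] at hk
  have h1 : (23 * a : ℚ) = k * m := by rw [← hk]; field_simp
  have h2 : 23 * a = k * m := by exact_mod_cast h1
  have h3 : IsCoprime m 23 :=
    ((Int.prime_iff_natAbs_prime.2 (by norm_num) : Prime (23 : ℤ)).coprime_iff_not_dvd.2 h.n23).symm
  exact h3.dvd_of_dvd_mul_left ⟨k, by rw [h2]; ring⟩

theorem EX.isZ_of_inr (h : St ρ b τ L u x1 m) {s : ℤ} {t : ℚ} (ht : ((0 : V), t) ∈ eLat L u m s) : IsZ t := by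
  obtain ⟨a, h1, h2⟩ := ht
  have h3 : ((a : ℚ) / m) • u ∈ L := by simpa using L.neg_mem h1
  obtain ⟨k, rfl⟩ := EX.dvd_of_mem h h3
  have hm := h.m_ne
  refine (h2.add (IsZ.int (k * s))).of_eq ?_
  push_cast
  field_simp
  ring

theorem EX.bu (h : St ρ b τ L u x1 m) (x : V) (a : ℤ) {k : ℤ} (hk : b u x = k * m) :
    b u (x + ((a : ℚ) / m) • u) = ((k * m + 23 * a : ℤ) : ℚ) := by
  have hm := h.m_ne
  rw [map_add, map_smul, hk, h.uu, smul_eq_mul]
  push_cast
  field_simp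

theorem EX.bxx (h : St ρ b τ L u x1 m) (x : V) (a : ℤ) {k : ℤ} (hk : b u x = k * m) :
    b (x + ((a : ℚ) / m) • u) (x + ((a : ℚ) / m) • u) = b x x + 2 * a * k + 23 * a ^ 2 / m := by
  have hm := h.m_ne
  have h1 : b x u = k * m := by rw [h.ctx.symm, hk]
  simp only [map_add, map_smul, LinearMap.add_apply, LinearMap.smul_apply, smul_eq_mul, hk, h1, h.uu]
  field_simp
  ring

theorem EX.even (h : St ρ b τ L u x1 m) {s : ℤ} (hs : MS m s) :
    ∀ p ∈ eLat L u m s, IsZ (eForm b m p p / 2) := by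
  intro p hp
  obtain ⟨x, a, c, hx, rfl⟩ := EX.nf hp
  obtain ⟨k, hk⟩ := h.dvd x hx
  obtain ⟨w, -, -, hw, -⟩ := EX.ms hs
  obtain ⟨m', hm'⟩ := h.ev
  have hm := h.m_ne
  have hw' : (23 + s ^ 2 : ℚ) = 2 * m * w := by exact_mod_cast hw
  have hm'' : (m : ℚ) = m' + m' := by exact_mod_cast hm'
  rw [eForm_apply, EX.bxx h x a hk]
  refine ((h.even x hx).add (IsZ.int (a * k + a ^ 2 * w + a * c * s + c ^ 2 * m'))).of_eq ?_
  push_cast
  have e1 : (23 * a ^ 2 / m : ℚ) + m * ((a * s / m + c) * (a * s / m + c)) =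
      a ^ 2 * ((23 + s ^ 2) / m) + 2 * a * c * s + c ^ 2 * m := by
    field_simp
    ring
  have e2 : ((23 + s ^ 2) / m : ℚ) = 2 * w := by rw [hw']; field_simp
  rw [e2] at e1
  linear_combination e1 / 2 + c ^ 2 * hm'' / 2

theorem EX.lat (h : St ρ b τ L u x1 m) (s : ℤ) : (eLat L u m s).IsLattice ℚ := by
  have e : eLat L u m s = L.map (LinearMap.inl ℤ V ℚ) ⊔
      (Submodule.span ℤ {((0 : V), (1 : ℚ))} ⊔ Submodule.span ℤ {(((1 : ℚ) / m) • u, (s : ℚ) / m)}) := by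
    apply le_antisymm
    · intro p hp
      obtain ⟨x, a, c, hx, rfl⟩ := EX.nf hp
      have e : (x + ((a : ℚ) / m) • u, (a : ℚ) * s / m + c) =
          LinearMap.inl ℤ V ℚ x + (c • ((0 : V), (1 : ℚ)) + a • (((1 : ℚ) / m) • u, (s : ℚ) / m)) := by
        refine Prod.ext ?_ ?_
        · simp only [LinearMap.inl_apply, Prod.fst_add, Prod.smul_fst, smul_zero, zero_add]
          rw [← Int.cast_smul_eq_zsmul ℚ, smul_smul]
          congr 2
          ring
        · simp only [LinearMap.inl_apply, Prod.snd_add, Prod.smul_snd]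
          simp only [zsmul_eq_mul]
          ring
      rw [e]
      exact Submodule.add_mem_sup (Submodule.mem_map_of_mem hx) (Submodule.add_mem_sup
        (Submodule.smul_mem _ _ (Submodule.mem_span_singleton_self _))
        (Submodule.smul_mem _ _ (Submodule.mem_span_singleton_self _)))
    · refine sup_le ?_ (sup_le ?_ ?_)
      · rintro _ ⟨x, hx, rfl⟩
        exact EX.inl s hx
      · rw [Submodule.span_singleton_le_iff_mem]
        simpa using EX.inr (L := L) (u := u) (m := m) s 1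
      · rw [Submodule.span_singleton_le_iff_mem]
        exact EX.glue s
  refine ⟨?_, ?_⟩
  · rw [e]
    exact (h.lat.fg.map _).sup ((Submodule.fg_span_singleton _).sup (Submodule.fg_span_singleton _))
  · rw [eq_top_iff]
    rintro ⟨x, t⟩ -
    have h1 : ((0 : V), (1 : ℚ)) ∈ Submodule.span ℚ (eLat L u m s : Set (V × ℚ)) :=
      Submodule.subset_span (by simpa using EX.inr (L := L) (u := u) (m := m) s 1)
    have h2 : (x, (0 : ℚ)) ∈ Submodule.span ℚ (eLat L u m s : Set (V × ℚ)) := by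
      have hx : x ∈ Submodule.span ℚ (L : Set V) := by rw [h.lat.span_eq_top]; trivial
      induction hx using Submodule.span_induction with
      | mem y hy => exact Submodule.subset_span (EX.inl s hy)
      | zero => exact Submodule.zero_mem _
      | add y z _ _ hy hz => simpa using Submodule.add_mem _ hy hz
      | smul r y _ hy => simpa using Submodule.smul_mem _ r hy
    simpa using Submodule.add_mem _ h2 (Submodule.smul_mem _ t h1)

theorem EX.arith1 {s k a c : ℤ} (hs : MS m s) (hC : a * s + c * m ≠ 0)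
    (hle : (k * m + 23 * a) ^ 2 + 23 * (a * s + c * m) ^ 2 ≤ 2 * m) : False := by
  generalize hA : k * m + 23 * a = A at hle
  generalize hC' : a * s + c * m = C at hle hC
  have h0 : 0 < C ^ 2 := by positivity
  have h1 : 0 ≤ A ^ 2 := by positivity
  rcases hs with ⟨rfl, rfl⟩ | ⟨rfl, rfl⟩ | ⟨rfl, rfl⟩ | ⟨rfl, rfl⟩
  · omega
  · omega
  · have a1 : A ≤ 1 := by nlinarith
    have a2 : -1 ≤ A := by nlinarith
    have c1 : C ≤ 1 := by nlinarith
    have c2 : -1 ≤ C := by nlinarith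
    omega
  · have a1 : A ≤ 5 := by nlinarith
    have a2 : -5 ≤ A := by nlinarith
    have c1 : C ≤ 1 := by nlinarith
    have c2 : -1 ≤ C := by nlinarith
    omega

theorem EX.arith2 {s k a c : ℤ} (hs : MS m s)
    (he : 23 * (k * m + a) ^ 2 + (a * s + c * m) ^ 2 = 2 * m) : False := by
  generalize hA : k * m + a = A at he
  generalize hC' : a * s + c * m = C at he
  have h0 : 0 ≤ C ^ 2 := by positivity
  have h1 : 0 ≤ A ^ 2 := by positivity
  have hm : m ≤ 26 := by rcases hs with ⟨rfl, rfl⟩ | ⟨rfl, rfl⟩ | ⟨rfl, rfl⟩ | ⟨rfl, rfl⟩ <;> norm_num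
  have a1 : A ≤ 1 := by nlinarith
  have a2 : -1 ≤ A := by nlinarith
  have c1 : C ≤ 7 := by nlinarith
  have c2 : -7 ≤ C := by nlinarith
  rcases hs with ⟨rfl, rfl⟩ | ⟨rfl, rfl⟩ | ⟨rfl, rfl⟩ | ⟨rfl, rfl⟩ <;> interval_cases A <;>
    interval_cases C <;> omega

theorem EX.arith3 {s t n : ℤ} (hs : MS m s) (h1 : -m ≤ 2 * t) (h2 : 2 * t ≤ m) (he : 23 + t ^ 2 = 2 * m * n)
    (hn : 23 + t ^ 2 ≠ 2 * m) : t = s ∨ t = -s := by
  rcases hs with ⟨rfl, rfl⟩ | ⟨rfl, rfl⟩ | ⟨rfl, rfl⟩ | ⟨rfl, rfl⟩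
  all_goals
    have a1 : t ≤ 13 := by omega
    have a2 : -13 ≤ t := by omega
    interval_cases t <;> omega

/-- Lattice: generated by `L × 0`, `(0,1)`, `(u/m, s/m)`.  Even: for `p = (x + (a/m) u, (a s)/m + c)`, `b u x = k m`, the norm is
`b x x + 2 a k + a² (23 + s²)/m + 2 a c s + c² m` and `(23 + s²)/m ∈ {6, 4}`.  Self-dual: `dual_iff`, subtract
`a (u/m, s/m)`; `(l, t)` dual gives `m t, s t ∈ ℤ`, and `s`, `m` are coprime. -/
theorem St.eu (h : St ρ b τ L u x1 m) {s : ℤ} (hs : MS m s) : EU (eForm b m) (eLat L u m s) := by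
  have hm := h.m_ne
  refine ⟨fun p q => ?_, fun p hp => ?_, EX.lat h s, EX.even h hs, fun p hp => ?_⟩
  · rw [eForm_apply, eForm_apply, h.ctx.symm, mul_comm p.2]
  · rw [eForm_apply]
    have hm0 : (0 : ℚ) < m := by exact_mod_cast h.pos
    by_cases h1 : p.1 = 0
    · have h2 : p.2 ≠ 0 := fun h2 => hp (Prod.ext h1 h2)
      have h3 : 0 < p.2 * p.2 := mul_self_pos.2 h2
      rw [h1]
      simp only [map_zero, zero_add]
      positivity
    · have h2 := h.ctx.pos _ h1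
      have h3 : 0 ≤ p.2 * p.2 := mul_self_nonneg _
      positivity
  · have hd : Dual b L p.1 := fun y hy => by
      simpa [eForm_apply] using hp _ (EX.inl (u := u) (m := m) s hy)
    obtain ⟨a, ha⟩ := (h.dual_iff _).1 hd
    refine ⟨a, ha, ?_⟩
    obtain ⟨k, hk⟩ := h.dvd _ ha
    obtain ⟨w, α, β, hw, hb⟩ := EX.ms hs
    have hw' : (23 + s ^ 2 : ℚ) = 2 * m * w := by exact_mod_cast hw
    have hb' : (α * s + β * m : ℚ) = 1 := by exact_mod_cast hb
    have h1 : IsZ (m * p.2) := by simpa [eForm_apply] using hp _ (EX.inr (L := L) (u := u) (m := m) s 1)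
    have h2 := hp _ (EX.glue (L := L) (u := u) (m := m) s)
    have h3 : b p.1 u = ((k * m + 23 * a : ℤ) : ℚ) := by
      rw [h.ctx.symm, ← EX.bu h _ a hk, sub_add_cancel]
    rw [eForm_apply, map_smul, h3] at h2
    have h4 : IsZ (m * (p.2 - a * s / m)) := (h1.sub (IsZ.int (a * s))).of_eq (by push_cast; field_simp)
    have h5 : IsZ (s * (p.2 - a * s / m)) := by
      refine (h2.sub (IsZ.int (k + 2 * a * w))).of_eq ?_
      have e2 : (w : ℚ) = (23 + s ^ 2) / (2 * m) := by rw [hw']; field_simp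
      push_cast
      rw [e2, smul_eq_mul]
      field_simp
      ring
    refine (((IsZ.int α).mul h5).add ((IsZ.int β).mul h4)).of_eq ?_
    linear_combination (p.2 - a * s / m) * hb'.symm

/-- Let `p = (x', C/m)` have norm 2, `x' = x + (a/m) u`, `b u x' = A = k m + 23 a`, `C = a s + c m`,
`2 = N(pr x') + (A² + 23 C²)/(23 m)`, `pr x' = pr x`.  If `pr x ≠ 0`, `min44` gives `A² + 23 C² ≤ 2 m`; `C = 0` forces `m ∣ a`,
`m ∣ A`, `A = 0`, and `x' ∈ L ∩ u^⊥` is a root; `C = ± 1` (`m = 12, 26`) forces `A ≡ ∓5 mod 12`, `A ≡ ∓9 mod 26`, too big.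
If `pr x = 0` then `x = (k/23) u ∈ L`, `23 ∣ k` (pair with `x1`), `A = 23 A'`, `A' ≡ a mod m`, `23 A'² + C² = 2 m`:
only `m = 12`, `A', C = ±1`, against `C ≡ 5 a mod 12`. -/
theorem St.noroot (h : St ρ b τ L u x1 m) (h2 : NoRoot b L u) {s : ℤ} (hs : MS m s) :
    ∀ p ∈ eLat L u m s, eForm b m p p ≠ 2 := by
  intro p hp h0
  have hm := h.m_ne
  have hm0 : (0 : ℚ) < m := by exact_mod_cast h.pos
  obtain ⟨x, a, c, hx, rfl⟩ := EX.nf hp
  obtain ⟨k, hk⟩ := h.dvd x hx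
  have hA := EX.bu h x a hk
  rw [eForm_apply] at h0
  simp only at h0
  have hp := h.pr_pr (x + ((a : ℚ) / m) • u) (x + ((a : ℚ) / m) • u)
  rw [hA] at hp
  have key : b (pr b u m (x + ((a : ℚ) / m) • u)) (pr b u m (x + ((a : ℚ) / m) • u)) * (23 * m) +
      (((k * m + 23 * a) ^ 2 + 23 * (a * s + c * m) ^ 2 : ℤ) : ℚ) = 46 * m := by
    rw [hp, eq_sub_of_add_eq h0]
    push_cast
    field_simp
    ring
  by_cases hy : pr b u m (x + ((a : ℚ) / m) • u) = 0
  · rw [hy] at key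
    simp only [map_zero, zero_mul, zero_add] at key
    have key' : (k * m + 23 * a) ^ 2 + 23 * (a * s + c * m) ^ 2 = 46 * m := by exact_mod_cast key
    have e1 : x = ((k : ℚ) / 23) • u := by
      unfold pr at hy
      rw [hA, sub_eq_zero, ← eq_sub_iff_add_eq, ← sub_smul] at hy
      rw [hy]
      congr 1
      push_cast
      field_simp
      ring
    obtain ⟨n, hn⟩ := h.int x hx x1 h.x1_mem
    rw [e1, LinearMap.map_smul₂, h.ux1, smul_eq_mul] at hn
    have hn1 : (k * m : ℚ) = 23 * n := by rw [← hn]; ring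
    have hn2 : k * m = 23 * n := by exact_mod_cast hn1
    have h23 : Prime (23 : ℤ) := Int.prime_iff_natAbs_prime.2 (by norm_num)
    obtain ⟨k', rfl⟩ := (h23.dvd_or_dvd ⟨n, hn2⟩).resolve_right h.n23
    refine EX.arith2 (k := k') (a := a) (c := c) hs ?_
    nlinarith
  · have h44 := h.min44 h2 (h.bu_pr _) hy fun i => by
      rw [h.pr_pow, map_add, map_smul, h.pow_u, add_sub_add_right_eq_sub]
      exact L.sub_mem (h.pow_mem i hx) hx
    have hle : (((k * m + 23 * a) ^ 2 + 23 * (a * s + c * m) ^ 2 : ℤ) : ℚ) ≤ 2 * m := by nlinarith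
    have hle' : (k * m + 23 * a) ^ 2 + 23 * (a * s + c * m) ^ 2 ≤ 2 * m := by exact_mod_cast hle
    by_cases hC : a * s + c * m = 0
    · obtain ⟨-, α, β, -, hb⟩ := EX.ms hs
      obtain ⟨a', rfl⟩ : m ∣ a := ⟨β * a - α * c, by linear_combination α * hC - a * hb⟩
      have hm4 : 4 ≤ m := by rcases hs with ⟨rfl, rfl⟩ | ⟨rfl, rfl⟩ | ⟨rfl, rfl⟩ | ⟨rfl, rfl⟩ <;> norm_num
      have hA0 : k + 23 * a' = 0 := by
        by_contra hne
        have h1 : 0 < (k + 23 * a') ^ 2 := by positivity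
        rw [hC] at hle'
        have h3 : m * (m * (k + 23 * a') ^ 2) ≤ m * 2 := by nlinarith
        have h4 : m * (k + 23 * a') ^ 2 ≤ 2 := le_of_mul_le_mul_left h3 h.pos
        nlinarith
      have hmem : x + (((m * a' : ℤ) : ℚ) / m) • u ∈ L := by
        refine L.add_mem hx ?_
        have : (((m * a' : ℤ) : ℚ) / m) = (a' : ℚ) := by push_cast; field_simp
        rw [this]
        exact EX.zs h.u_mem
      refine h2 _ hmem ?_ ?_
      · rw [hA]
        have : k * m + 23 * (m * a') = 0 := by linear_combination m * hA0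
        rw [this, Int.cast_zero]
      · have hC' : (((m * a' : ℤ) : ℚ) * s / m + c) = 0 := by
          have : (((m * a' * s + c * m : ℤ) : ℚ)) = 0 := by rw [hC, Int.cast_zero]
          have e : (((m * a' : ℤ) : ℚ) * s / m + c) = ((m * a' * s + c * m : ℤ) : ℚ) / m := by
            push_cast
            field_simp
          rw [e, this, zero_div]
        rw [hC'] at h0
        simpa using h0
    · exact EX.arith1 hs hC hle'

/-- `ρ g (u/m)` is dual to `L`, so `≡ (a/m) u mod L` (`dual_iff`); choose `s' ≡ a s mod m` with `|s'| ≤ m/2`; then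
`(ρ g (u/m), s'/m) ∈ eLat` has norm `(23 + s'²)/m`, even and `≠ 2` (`eu`, `noroot`): `s' = ± s` in each of the four cases.
So there is `ε = ±1` with `(ρ g (u/m), ε s/m) ∈ eLat`, unique as `2 s/m ∉ ℤ` (`(0, t) ∈ eLat ↔ t ∈ ℤ`: `(a/m) u ∈ L` forces
`m ∣ a`, since `b u ((a/m) u) = 23 a ∈ mℤ`); `eLat` is generated by `L × 0`, `(0,1)`, `(u/m, s/m)`; multiplicativity by uniqueness. -/
theorem St.sign (h : St ρ b τ L u x1 m) (h2 : NoRoot b L u) {s : ℤ} (hs : MS m s) :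
    ∃ ε : G →* ℤˣ, ∀ g, ∀ p ∈ eLat L u m s, (ρ g p.1, ((ε g : ℤ) : ℚ) * p.2) ∈ eLat L u m s := by
  have hm := h.m_ne
  have hex : ∀ g, ∃ ε : ℤˣ, (ρ g (((1 : ℚ) / m) • u), ((ε : ℤ) : ℚ) * ((s : ℚ) / m)) ∈ eLat L u m s := by
    intro g
    have hd0 : Dual b L (((1 : ℚ) / m) • u) := (h.dual_iff _).2 ⟨1, by simp⟩
    have hd : Dual b L (ρ g (((1 : ℚ) / m) • u)) := fun y hy => by
      have e : y = ρ g (ρ g⁻¹ y) := by
        rw [← Module.End.mul_apply, ← map_mul, mul_inv_cancel, map_one, Module.End.one_apply]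
      rw [e, h.ctx.inv]
      exact hd0 _ (h.inv _ _ hy)
    obtain ⟨a, ha⟩ := (h.dual_iff _).1 hd
    obtain ⟨t, c, ht, ht1, ht2⟩ : ∃ t c : ℤ, t = a * s + c * m ∧ -m ≤ 2 * t ∧ 2 * t ≤ m := by
      have hp := h.pos
      have e1 := Int.emod_add_mul_ediv (a * s) m
      have e2 := Int.emod_nonneg (a * s) hp.ne'
      have e3 := Int.emod_lt_of_pos (a * s) hp
      by_cases hc : 2 * (a * s % m) ≤ m
      · exact ⟨a * s % m, -(a * s / m), by linear_combination e1, by omega, hc⟩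
      · exact ⟨a * s % m - m, -(a * s / m) - 1, by linear_combination e1, by omega, by omega⟩
    have hmem : (ρ g (((1 : ℚ) / m) • u), (t : ℚ) / m) ∈ eLat L u m s :=
      ⟨a, ha, c, by rw [ht]; push_cast; field_simp; ring⟩
    have hn : eForm b m (ρ g (((1 : ℚ) / m) • u), (t : ℚ) / m) (ρ g (((1 : ℚ) / m) • u), (t : ℚ) / m) =
        ((23 + t ^ 2 : ℤ) : ℚ) / m := by
      rw [eForm_apply]
      simp only
      rw [h.ctx.inv, LinearMap.map_smul₂, map_smul, h.uu]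
      simp only [smul_eq_mul]
      push_cast
      field_simp
    obtain ⟨n, hn1⟩ := EX.even h hs _ hmem
    have hn2 := h.noroot h2 hs _ hmem
    rw [hn] at hn1 hn2
    have hn3 : ((23 + t ^ 2 : ℤ) : ℚ) = 2 * m * n := by rw [← hn1]; field_simp
    have hn4 : 23 + t ^ 2 ≠ 2 * m := fun e => hn2 (by rw [e]; push_cast; field_simp)
    rcases EX.arith3 hs ht1 ht2 (by exact_mod_cast hn3) hn4 with rfl | rfl
    · exact ⟨1, by simpa using hmem⟩
    · exact ⟨-1, by simpa [neg_div] using hmem⟩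
  have hall : ∀ g (ε : ℤˣ), (ρ g (((1 : ℚ) / m) • u), ((ε : ℤ) : ℚ) * ((s : ℚ) / m)) ∈ eLat L u m s →
      ∀ p ∈ eLat L u m s, (ρ g p.1, ((ε : ℤ) : ℚ) * p.2) ∈ eLat L u m s := by
    intro g ε hg p hp
    obtain ⟨x, a, c, hx, rfl⟩ := EX.nf hp
    have e : (ρ g (x + ((a : ℚ) / m) • u), ((ε : ℤ) : ℚ) * ((a : ℚ) * s / m + c)) =
        (ρ g x, (0 : ℚ)) + a • (ρ g (((1 : ℚ) / m) • u), ((ε : ℤ) : ℚ) * ((s : ℚ) / m)) +
          ((0 : V), (((ε : ℤ) * c : ℤ) : ℚ)) := by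
      refine Prod.ext ?_ ?_
      · simp only [Prod.fst_add, Prod.smul_fst, add_zero, map_add, map_smul]
        rw [← Int.cast_smul_eq_zsmul ℚ, smul_smul]
        congr 2
        ring
      · simp only [Prod.snd_add, Prod.smul_snd]
        simp only [zsmul_eq_mul]
        push_cast
        ring
    simp only
    rw [e]
    exact Submodule.add_mem _ (Submodule.add_mem _ (EX.inl s (h.inv g x hx)) (Submodule.smul_mem _ _ hg))
      (EX.inr s _)
  have huniq : ∀ g (ε ε' : ℤˣ), (ρ g (((1 : ℚ) / m) • u), ((ε : ℤ) : ℚ) * ((s : ℚ) / m)) ∈ eLat L u m s →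
      (ρ g (((1 : ℚ) / m) • u), ((ε' : ℤ) : ℚ) * ((s : ℚ) / m)) ∈ eLat L u m s → ε = ε' := by
    intro g ε ε' h1 h1'
    have h3 := Submodule.sub_mem _ h1 h1'
    rw [Prod.mk_sub_mk, sub_self] at h3
    obtain ⟨n, hn⟩ := EX.isZ_of_inr h h3
    have hn1 : (((ε : ℤ) - (ε' : ℤ)) * s : ℚ) = n * m := by rw [← hn]; field_simp
    have hn2 : ((ε : ℤ) - (ε' : ℤ)) * s = n * m := by exact_mod_cast hn1
    rcases Int.units_eq_one_or ε with rfl | rfl <;> rcases Int.units_eq_one_or ε' with rfl | rfl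
    · rfl
    · exfalso
      simp only [Units.val_one, Units.val_neg] at hn2
      rcases hs with ⟨rfl, rfl⟩ | ⟨rfl, rfl⟩ | ⟨rfl, rfl⟩ | ⟨rfl, rfl⟩ <;> omega
    · exfalso
      simp only [Units.val_one, Units.val_neg] at hn2
      rcases hs with ⟨rfl, rfl⟩ | ⟨rfl, rfl⟩ | ⟨rfl, rfl⟩ | ⟨rfl, rfl⟩ <;> omega
    · rfl
  choose e he using hex
  refine ⟨MonoidHom.mk' e fun g g' => huniq (g * g') _ _ (he _) ?_, fun g => hall g _ (he g)⟩
  have h3 := hall g _ (he g) _ (he g')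
  simpa [map_mul, mul_assoc] using h3

theorem St.half (h : St ρ b τ L u x1 m) {s : ℤ} (hs : MS m s) :
    ((0 : V), (1 : ℚ)) ∈ eLat L u m s ∧ ((0 : V), (1 / 2 : ℚ)) ∉ eLat L u m s := by
  refine ⟨by simpa using EX.inr (L := L) (u := u) (m := m) s 1, fun h1 => ?_⟩
  obtain ⟨n, hn⟩ := EX.isZ_of_inr h h1
  have h2 : (1 : ℚ) = 2 * n := by rw [← hn]; norm_num
  have h3 : (1 : ℤ) = 2 * n := by exact_mod_cast h2
  omega

end CL.F23
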