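/-
S3355: gluing along a discriminant group of order 23.
-/
import Cfsg.Agent.REC.F23.Gram
import Cfsg.Agent.REC.F23.ModA

set_option autoImplicit false

namespace CL.F23

open Matrix Module

variable {U : Type} [AddCommGroup U] [Module ℚ U] [FiniteDimensional ℚ U]
  {c : LinearMap.BilinForm ℚ U} {T : U →ₗ[ℚ] U} {K : Submodule ℤ U} {y0 : U} {m : ℤ}

namespace Glue

theorem sym {R : Type*} [CommRing R] {r : ℕ} {A : Matrix (Fin r) (Fin r) R} (hs : A.IsSymm) (x y : Fin r → R) :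
    x ⬝ᵥ A *ᵥ y = y ⬝ᵥ A *ᵥ x := by
  rw [dotProduct_mulVec, ← mulVec_transpose, hs.eq, dotProduct_comm]

theorem even_form {r : ℕ} {A : Matrix (Fin r) (Fin r) ℤ} (hs : A.IsSymm) (he : ∀ i, Even (A i i))
    (x : Fin r → ℤ) : Even (x ⬝ᵥ A *ᵥ x) := by
  induction x using Pi.single_induction with
  | zero => simp
  | add x y hx hy =>
    rw [mulVec_add, add_dotProduct, dotProduct_add, dotProduct_add, sym hs y x, add_assoc, ← add_assoc (x ⬝ᵥ A *ᵥ y)]
    exact hx.add (Even.add ⟨_, rfl⟩ hy)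
  | single i a =>
    simp only [single_dotProduct, mulVec_single, Pi.smul_apply, col_apply, MulOpposite.smul_eq_mul_unop,
      MulOpposite.unop_op]
    exact ((he i).mul_right _).mul_left _

omit [FiniteDimensional ℚ U] in
theorem span_top {M : Submodule ℤ U} (h : ∀ x, ∃ n : ℤ, n ≠ 0 ∧ n • x ∈ M) :
    Submodule.span ℚ (M : Set U) = ⊤ := by
  rw [eq_top_iff]
  rintro w -
  obtain ⟨n, hn, h⟩ := h w
  have h2 := Submodule.smul_mem _ (n : ℚ)⁻¹ (Submodule.subset_span (R := ℚ) h)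
  rwa [← Int.cast_smul_eq_zsmul ℚ, smul_smul, inv_mul_cancel₀ (Int.cast_ne_zero.2 hn), one_smul] at h2

theorem IsZ.dot {r : ℕ} {x y : Fin r → ℚ} (hx : ∀ i, IsZ (x i)) (hy : ∀ i, IsZ (y i)) : IsZ (x ⬝ᵥ y) :=
  Finset.sum_induction _ IsZ (fun _ _ => IsZ.add) IsZ.zero fun i _ => (hx i).mul (hy i)

/-- the integer vectors -/
theorem mem_zspan {r : ℕ} {x : Fin r → ℚ} (hx : ∀ i, IsZ (x i)) :
    x ∈ Submodule.span ℤ (Set.range fun i : Fin r => (Pi.single i 1 : Fin r → ℚ)) := by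
  choose n hn using hx
  rw [← Finset.univ_sum_single x]
  refine Submodule.sum_mem _ fun i _ => ?_
  have : (Pi.single i (x i) : Fin r → ℚ) = n i • (Pi.single i 1 : Fin r → ℚ) := by
    rw [← Pi.single_smul, hn i]; simp
  rw [this]
  exact Submodule.smul_mem _ _ (Submodule.subset_span ⟨i, rfl⟩)

end Glue
open Glue

/-- Gluing.  `y := t • y0` (`23 ∤ t`) also generates `K*/K`, and `c y y ≡ -t² m/23` is not an integer.
Lattice: generated by `K × 0`, `0 × ℤ^r`, `(y, f0)`.  Even: expand `(k + j y, n + j f0)`.  Self-dual: if `(z, f)` is dual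
then `z` is dual to `K` and `A f` is integral, subtract `j (y, f0)` and an integer vector to get `f = 0`; then
`z = k + i y` with `c z y ∈ ℤ`, so `23 ∣ i`, `z ∈ K`. -/
theorem Cy.glue (h : Cy c T K y0 m) (t : ℤ) (ht : ¬ 23 ∣ t) {r : ℕ} (A : Matrix (Fin r) (Fin r) ℤ) (hs : A.IsSymm)
    (hp : ∀ f : Fin r → ℚ, f ≠ 0 → 0 < f ⬝ᵥ toQ A *ᵥ f) (he : ∀ i, Even (A i i)) (f0 : Fin r → ℚ)
    (hf : ∀ i, IsZ ((toQ A *ᵥ f0) i)) (hf23 : ∀ i, IsZ (23 * f0 i))
    (hg : ∀ f : Fin r → ℚ, (∀ i, IsZ ((toQ A *ᵥ f) i)) → ∃ j : ℤ, ∀ i, IsZ (f i - j * f0 i))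
    (hn : IsZ ((f0 ⬝ᵥ toQ A *ᵥ f0 - t ^ 2 * m / 23) / 2)) :
    EU (gForm c A) (gLat K ((t : ℚ) • y0) f0) := by
  have hsQ : (toQ A).IsSymm := hs.map _
  set y : U := (t : ℚ) • y0 with hy
  have yK : ∀ k ∈ K, IsZ (c y k) := fun k hk =>
    ((IsZ.int t).mul (h.dual k hk)).of_eq (by rw [hy, map_smul, LinearMap.smul_apply, smul_eq_mul])
  have yy : IsZ ((c y y + f0 ⬝ᵥ toQ A *ᵥ f0) / 2) :=
    ((((IsZ.int t).mul (IsZ.int t)).mul h.norm).add hn).of_eq (by
      simp only [hy, map_smul, LinearMap.smul_apply, smul_eq_mul]; ring)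
  refine ⟨fun p q => ?_, fun p hp0 => ?_, ⟨?_, span_top fun p => ?_⟩, ?_, fun p hd => ?_⟩
  · rw [gForm_apply, gForm_apply, h.symm, sym hsQ]
  · rw [gForm_apply]
    have a1 : 0 ≤ c p.1 p.1 := by
      rcases eq_or_ne p.1 0 with e | e
      · simp [e]
      · exact (h.pos _ e).le
    have a2 : 0 ≤ p.2 ⬝ᵥ toQ A *ᵥ p.2 := by
      rcases eq_or_ne p.2 0 with e | e
      · simp [e]
      · exact (hp _ e).le
    rcases eq_or_ne p.1 0 with e | e
    · have := hp p.2 fun e' => hp0 (Prod.ext e e')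
      linarith
    · have := h.pos _ e
      linarith
  · refine ((h.lat.fg.sup (Submodule.fg_span_singleton y)).prod ((Submodule.fg_span (Set.finite_range
      fun i : Fin r => (Pi.single i 1 : Fin r → ℚ))).sup (Submodule.fg_span_singleton f0))).of_le ?_
    rintro p ⟨j, h1, h2⟩
    refine ⟨?_, ?_⟩
    · rw [← sub_add_cancel p.1 ((j : ℚ) • y), Int.cast_smul_eq_zsmul]
      exact Submodule.add_mem_sup (by rwa [Int.cast_smul_eq_zsmul] at h1)
        (Submodule.smul_mem _ _ (Submodule.mem_span_singleton_self y))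
    · rw [← sub_add_cancel p.2 (j • f0)]
      exact Submodule.add_mem_sup (mem_zspan fun i => (h2 i).of_eq (by simp))
        (Submodule.smul_mem _ _ (Submodule.mem_span_singleton_self f0))
  · obtain ⟨n, hn0, h1⟩ := Gram.exists_mul h.lat p.1
    obtain ⟨N, w, hN, h2⟩ := exists_int_smul p.2
    refine ⟨N * n, mul_ne_zero hN hn0, 0, ?_, fun i => ⟨n * w i, ?_⟩⟩
    · simpa [mul_smul] using K.smul_mem N h1
    · have := congrFun h2 i
      simp only [Pi.smul_apply, smul_eq_mul] at this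
      simp [← this]; ring
  · rintro p ⟨j, h1, h2⟩
    choose n hn' using h2
    have e1 : p.1 = (p.1 - (j : ℚ) • y) + (j : ℚ) • y := (sub_add_cancel _ _).symm
    have e2 : p.2 = (fun i => (n i : ℚ)) + (j : ℚ) • f0 := funext fun i => by simp [← hn' i]
    obtain ⟨w, hw⟩ := even_form hs he n
    have a1 := h.even _ h1
    have a2 := yK _ h1
    have a3 := IsZ.dot (fun i => IsZ.int (n i)) hf
    have a4 := toQ_form A n n
    generalize p.1 - (j : ℚ) • y = k at e1 a1 a2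
    rw [gForm_apply, e1, e2]
    refine ((((a1.add ((IsZ.int j).mul a2)).add (IsZ.int w)).add ((IsZ.int j).mul a3)).add
      (((IsZ.int j).mul (IsZ.int j)).mul yy)).of_eq ?_
    simp only [map_add, map_smul, LinearMap.add_apply, LinearMap.smul_apply, smul_eq_mul, mulVec_add,
      mulVec_smul, add_dotProduct, dotProduct_add, dotProduct_smul, smul_dotProduct, a4, hw, h.symm k y,
      sym hsQ f0 fun i => (n i : ℚ)]
    push_cast
    ring
  · have d1 : Dual c K p.1 := fun k hk =>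
      (hd (k, 0) ⟨0, by simpa using hk, fun i => by simpa using IsZ.zero⟩).of_eq (by simp [gForm_apply])
    obtain ⟨j, hj⟩ := hg p.2 fun i => (hd (0, Pi.single i 1) ⟨0, by simp, fun k => by
      simp only [Int.cast_zero, zero_mul, sub_zero, Pi.single_apply]
      split_ifs
      exacts [⟨1, by simp⟩, IsZ.zero]⟩).of_eq (by
        rw [gForm_apply, sym hsQ]; simp)
    have d2 := hd (y, f0) ⟨1, by simp, fun i => by simpa using IsZ.zero⟩
    obtain ⟨i, hi⟩ := h.gen (p.1 - (j : ℚ) • y) fun k hk =>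
      ((d1 k hk).sub ((IsZ.int j).mul (yK k hk))).of_eq (by simp)
    have a1 := IsZ.dot hj hf
    have a2 := yK _ hi
    have e2 : p.2 ⬝ᵥ toQ A *ᵥ f0 = (fun i => p.2 i - j * f0 i) ⬝ᵥ toQ A *ᵥ f0 + j * (f0 ⬝ᵥ toQ A *ᵥ f0) := by
      rw [← smul_eq_mul, ← smul_dotProduct, ← add_dotProduct]
      congr 1
      funext i
      simp
    obtain ⟨w, hw⟩ : IsZ ((i * t * m : ℚ) / 23) :=
      (((((IsZ.int (2 * i * t)).mul h.norm).add a2).add (((IsZ.int (2 * j)).mul yy).add a1)).sub d2).of_eq (by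
        rw [gForm_apply, e2]
        simp only [map_sub, map_smul, smul_eq_mul, h.symm y p.1]
        rw [show c y y0 = t * c y0 y0 by simp [hy]]
        push_cast
        ring)
    have : (23 : ℤ) ∣ i * t * m := ⟨w, by
      rw [div_eq_iff (by norm_num)] at hw
      rw [mul_comm 23]; exact_mod_cast hw⟩
    have p23 : Prime (23 : ℤ) := Int.prime_iff_natAbs_prime.2 (by norm_num)
    obtain ⟨l, rfl⟩ := (p23.dvd_or_dvd ((p23.dvd_or_dvd this).resolve_right h.n23)).resolve_right ht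
    refine ⟨j, ?_, hj⟩
    have := K.add_mem hi (K.smul_mem l h.y23)
    rwa [← Int.cast_smul_eq_zsmul ℚ l, smul_smul (l : ℚ), Int.cast_mul, mul_comm (l : ℚ), Int.cast_ofNat,
      sub_add_cancel] at this

/-- `m` is a square modulo 23.  Otherwise `46 ∣ 10 - t² m` for some `t` (10 is a non-square; `m` even; `decide` over
`ZMod 23`), and `glue` with the rank 6 matrix `A` (nodes 0-1-2-3 a chain `A₄`, node 4 an `A₁`, node 5 with diagonal
entry 4 joined to nodes 1 and 4; diagonal `2,2,2,2,2,4`, edges `-1`; determinant 23), `f0 = A⁻¹ e₅ = (6,12,8,4,5,10)/23`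
of norm `10/23`, gives an even unimodular lattice of rank 28, against `EU.eight_dvd`.
(`hg`: with `n = A f` integral, `f = A⁻¹ n`; the classes of the dual basis vectors are multiples of `f0`; positivity by an
explicit sum of squares / `nlinarith`.) -/
theorem Cy.qr (h : Cy c T K y0 m) : ∃ t : ℤ, ¬ 23 ∣ t ∧ 46 ∣ 4 - t ^ 2 * m := by
  have key : ∀ r : Fin 23, r ≠ 0 → ∃ t : Fin 23, t ≠ 0 ∧
      ((4 - (t : ℤ) ^ 2 * r) % 23 = 0 ∨ (10 - (t : ℤ) ^ 2 * r) % 23 = 0) := by decide +kernel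
  have n23 := h.n23
  obtain ⟨m', hm'⟩ := h.ev
  obtain ⟨t, t0, ht⟩ := key ⟨(m % 23).toNat, by omega⟩ fun e => by
    have := congrArg Fin.val e
    simp only [Fin.val_zero] at this
    omega
  have e : ((⟨(m % 23).toNat, by omega⟩ : Fin 23) : ℤ) = m % 23 := by
    show ((m % 23).toNat : ℤ) = _
    omega
  rw [e] at ht
  have t1 : ¬ (23 : ℤ) ∣ (t : ℤ) := by
    have := t.2
    have : t.1 ≠ 0 := fun k => t0 (Fin.ext k)
    omega
  have e1 : (t : ℤ) ^ 2 * m = (t : ℤ) ^ 2 * (m % 23) + 23 * ((t : ℤ) ^ 2 * (m / 23)) := by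
    conv_lhs => rw [← Int.emod_add_mul_ediv m 23]
    ring
  have e2 : (t : ℤ) ^ 2 * m = 2 * ((t : ℤ) ^ 2 * m') := by rw [hm']; ring
  rcases ht with ht | ht
  · exact ⟨t, t1, by omega⟩
  · exfalso
    obtain ⟨w, hw⟩ : (46 : ℤ) ∣ 10 - (t : ℤ) ^ 2 * m := by omega
    have := (h.glue t t1 !![2, -1, 0, 0, 0, 0; -1, 2, -1, 0, 0, -1; 0, -1, 2, -1, 0, 0; 0, 0, -1, 2, 0, 0;
      0, 0, 0, 0, 2, -1; 0, -1, 0, 0, -1, 4] (by decide) (fun f hf => ?_) (by decide)
      ![6 / 23, 12 / 23, 8 / 23, 4 / 23, 5 / 23, 10 / 23] (fun i => ?_) (fun i => ?_) (fun f hf => ?_)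
      ⟨w, ?_⟩).eight_dvd
    · rw [finrank_prod, h.dim, finrank_fin_fun] at this
      omega
    · by_contra k
      simp [dotProduct, mulVec, Fin.sum_univ_succ] at k
      have q : f 0 ^ 2 + (f 0 - f 1) ^ 2 + (f 1 - f 2) ^ 2 + (f 2 - f 3) ^ 2 + f 3 ^ 2 + f 4 ^ 2 +
        (f 4 - f 5) ^ 2 + 3 * f 5 ^ 2 - 2 * f 1 * f 5 ≤ 0 := by linarith
      have h5 : f 5 = 0 := by
        nlinarith [sq_nonneg (2 * f 0 - f 1), sq_nonneg (3 * f 3 - f 1), sq_nonneg (3 * f 2 - 2 * f 1),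
          sq_nonneg (2 * f 3 - f 2), sq_nonneg (2 * f 4 - f 5), sq_nonneg (5 * f 1 - 6 * f 5), sq_nonneg (f 5)]
      rw [h5] at q
      have s0 := sq_nonneg (f 0)
      have s1 := sq_nonneg (f 0 - f 1)
      have s2 := sq_nonneg (f 1 - f 2)
      have s3 := sq_nonneg (f 2 - f 3)
      have s4 := sq_nonneg (f 4)
      have s5 := sq_nonneg (f 3)
      have h0 : f 0 = 0 := pow_eq_zero_iff (n := 2) (by norm_num) |>.1 (by nlinarith)
      have h1 : f 0 - f 1 = 0 := pow_eq_zero_iff (n := 2) (by norm_num) |>.1 (by nlinarith)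
      have h2 : f 1 - f 2 = 0 := pow_eq_zero_iff (n := 2) (by norm_num) |>.1 (by nlinarith)
      have h3 : f 3 = 0 := pow_eq_zero_iff (n := 2) (by norm_num) |>.1 (by nlinarith)
      have h4 : f 4 = 0 := pow_eq_zero_iff (n := 2) (by norm_num) |>.1 (by nlinarith)
      refine hf (funext fun i => ?_)
      fin_cases i <;> simp <;> linarith
    · refine ⟨if i = 5 then 1 else 0, ?_⟩
      fin_cases i <;> simp [dotProduct, mulVec, Fin.sum_univ_succ] <;> norm_num
    · refine ⟨![6, 12, 8, 4, 5, 10] i, ?_⟩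
      fin_cases i <;> simp <;> norm_num
    · obtain ⟨n0, h0⟩ := hf 0
      obtain ⟨n1, h1⟩ := hf 1
      obtain ⟨n2, h2⟩ := hf 2
      obtain ⟨n3, h3⟩ := hf 3
      obtain ⟨n4, h4⟩ := hf 4
      obtain ⟨n5, h5⟩ := hf 5
      simp [dotProduct, mulVec, Fin.sum_univ_succ] at h0 h1 h2 h3 h4 h5
      refine ⟨19 * n0 + 15 * n1 + 10 * n2 + 5 * n3 + 12 * n4 + 1 * n5, fun i => ⟨![(-4) * n0 + (-3) * n1 + (-2) * n2 + (-1) * n3 + (-3) * n4 + (0) * n5,
        (-9) * n0 + (-6) * n1 + (-4) * n2 + (-2) * n3 + (-6) * n4 + (0) * n5,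
        (-6) * n0 + (-4) * n1 + (-2) * n2 + (-1) * n3 + (-4) * n4 + (0) * n5,
        (-3) * n0 + (-2) * n1 + (-1) * n2 + (0) * n3 + (-2) * n4 + (0) * n5,
        (-4) * n0 + (-3) * n1 + (-2) * n2 + (-1) * n3 + (-2) * n4 + (0) * n5,
        (-8) * n0 + (-6) * n1 + (-4) * n2 + (-2) * n3 + (-5) * n4 + (0) * n5] i, ?_⟩⟩
      fin_cases i <;> simp <;> linarith
    · have : ((t : ℤ) : ℚ) ^ 2 * m = 10 - 46 * w := by
        have : (t : ℤ) ^ 2 * m = 10 - 46 * w := by omega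
        exact_mod_cast this
      rw [this]
      simp [dotProduct, mulVec, Fin.sum_univ_succ]
      ring

end CL.F23
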