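/-
S3355: two facts on a 2-3-4 triangle in the Leech lattice.
-/
import Cfsg.Agent.REC.F23.Defs
import Cfsg.Agent.SPOR.LeechOrder

set_option autoImplicit false

namespace CL.F23

open Matrix Module

open Cfsg CL.Leech in
theorem LF.smul_sub (g : Co0) (x y : leechLattice) : g • (x - y) = g • x - g • y :=
  _root_.smul_sub g x y

open Cfsg CL.Leech in
theorem LF.std (a c : leechLattice) (h1 : dotInt (a : GolayPt → ℤ) a = 32)
    (h12 : dotInt (a : GolayPt → ℤ) c = 8) (h : a - c = e8 none) :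
    (∃ x : leechLattice, dotInt (x : GolayPt → ℤ) x = 32 ∧ dotInt (x : GolayPt → ℤ) a = 0 ∧
      dotInt (x : GolayPt → ℤ) c = 0) ∧
    ∃ w : leechLattice, dotInt (w : GolayPt → ℤ) w = 32 ∧ dotInt (w : GolayPt → ℤ) a = 16 ∧
      dotInt (w : GolayPt → ℤ) c = 24 := by
  have hc : (a : GolayPt → ℤ) - (c : GolayPt → ℤ) = Pi.single none 8 := congrArg Subtype.val h
  have a0 : (a : GolayPt → ℤ) none = 3 := by
    have := dot_sub_right (a : GolayPt → ℤ) a c
    rw [hc, dot_single_right, h1, h12] at this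
    omega
  have c0 : (c : GolayPt → ℤ) none = -5 := by
    have := congrFun hc none
    rw [Pi.sub_apply, Pi.single_eq_same, a0] at this
    omega
  have cj : ∀ j, (c : GolayPt → ℤ) (some j) = (a : GolayPt → ℤ) (some j) := fun j => by
    have := congrFun hc (some j)
    rw [Pi.sub_apply, Pi.single_eq_of_ne (Option.some_ne_none j)] at this
    omega
  have od : ∀ j, (a : GolayPt → ℤ) (some j) % 2 = 1 := fun j => by
    have := eight_dvd_dot (v44 none (some j) 4 4 rfl rfl).2 a.2
    rw [coe_v44, dot_add_left, dot_single_left, dot_single_left, a0] at this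
    omega
  have sq : ∀ j, (a : GolayPt → ℤ) (some j) * (a : GolayPt → ℤ) (some j) = 1 := by
    have h3 : ∑ j : ZMod 23, ((a : GolayPt → ℤ) (some j) * (a : GolayPt → ℤ) (some j) - 1) = 0 := by
      rw [dotInt, Fintype.sum_option, a0] at h1
      rw [Finset.sum_sub_distrib, Finset.sum_const, Finset.card_univ, ZMod.card]
      simp only [nsmul_eq_mul]
      omega
    intro j
    have := (Finset.sum_eq_zero_iff_of_nonneg fun j _ => by
      have h0 : (a : GolayPt → ℤ) (some j) ≠ 0 := by have := od j; omega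
      have := mul_self_pos.2 h0
      omega).1 h3 j (Finset.mem_univ j)
    omega
  have s0 := sq 0
  have s1 := sq 1
  have o0 := od 0
  have o1 := od 1
  refine ⟨⟨v44 (some 0) (some 1) (4 * (a : GolayPt → ℤ) (some 0)) (-4 * (a : GolayPt → ℤ) (some 1))
    (by omega) (by omega), ?_, ?_, ?_⟩,
    a - v44 none (some 0) 4 (4 * (a : GolayPt → ℤ) (some 0)) rfl (by omega), ?_, ?_, ?_⟩
  · rw [← sqNorm_eq_dot, coe_v44, sqNorm_single_add_single (by decide)]
    linear_combination 16 * s0 + 16 * s1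
  · rw [coe_v44, dot_add_left, dot_single_left, dot_single_left]
    linear_combination 4 * s0 - 4 * s1
  · rw [coe_v44, dot_add_left, dot_single_left, dot_single_left, cj, cj]
    linear_combination 4 * s0 - 4 * s1
  · rw [← sqNorm_eq_dot, AddSubgroup.coe_sub, sqNorm_sub, coe_v44,
      sqNorm_single_add_single (by decide), sqNorm_eq_dot, h1, dot_add_right, dot_single_right,
      dot_single_right, a0]
    linear_combination 8 * s0
  · rw [AddSubgroup.coe_sub, dot_sub_left, h1, coe_v44, dot_add_left, dot_single_left,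
      dot_single_left, a0]
    linear_combination (-4) * s0
  · rw [AddSubgroup.coe_sub, dot_sub_left, h12, coe_v44, dot_add_left, dot_single_left,
      dot_single_left, c0, cj]
    linear_combination (-4) * s0

open Cfsg in
/-- Proof.  `f1 - f2` has `sqNorm = 64`; by `CL.Leech…trans_64` (file `SPOR/LeechOrder`) we may assume `f1 - f2 = e8 i`
(`dot_smul`, `sqNorm_smul`).  `dotInt f1 (e8 i) = 24` gives `f1 i = 3`, so all coordinates are odd (`dotInt f1 (v44 ..)` is
divisible by 8, or the definition of `leechSet`), and `sqNorm f1 = 32` forces `f1 j = ε j = ±1` for `j ≠ i`; `f2 i = -5`,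
`f2 j = ε j`.  Take `x = 4 ε j e_j - 4 ε k e_k` (`j ≠ k`, both `≠ i`; `v44`) and `w = f1 - 4 e_i - 4 ε j e_j`. -/
theorem leech_tri (f1 f2 : leechLattice) (h1 : dotInt (f1 : GolayPt → ℤ) f1 = 32)
    (h2 : dotInt (f2 : GolayPt → ℤ) f2 = 48) (h12 : dotInt (f1 : GolayPt → ℤ) f2 = 8) :
    (∃ x : leechLattice, dotInt (x : GolayPt → ℤ) x = 32 ∧ dotInt (x : GolayPt → ℤ) f1 = 0 ∧
      dotInt (x : GolayPt → ℤ) f2 = 0) ∧
    ∃ w : leechLattice, dotInt (w : GolayPt → ℤ) w = 32 ∧ dotInt (w : GolayPt → ℤ) f1 = 16 ∧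
      dotInt (w : GolayPt → ℤ) f2 = 24 := by
  obtain ⟨g, hg⟩ := CL.Leech.trans_64 (u := f1 - f2) (v := CL.Leech.e8 none) (by
    rw [AddSubgroup.coe_sub, CL.Leech.sqNorm_sub, CL.Leech.sqNorm_eq_dot, CL.Leech.sqNorm_eq_dot,
      h1, h2, h12]
    norm_num) (CL.Leech.sqNorm_e8 none)
  have pull : ∀ x y : leechLattice, dotInt ((g⁻¹ • x : leechLattice) : GolayPt → ℤ) y =
      dotInt (x : GolayPt → ℤ) (g • y : leechLattice) := fun x y => by
    rw [← CL.Leech.dot_smul g, smul_inv_smul]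
  obtain ⟨⟨x, x1, x2, x3⟩, w, w1, w2, w3⟩ := LF.std (g • f1) (g • f2) (by rw [CL.Leech.dot_smul, h1])
    (by rw [CL.Leech.dot_smul, h12]) (by rw [← hg]; exact (LF.smul_sub g f1 f2).symm)
  exact ⟨⟨g⁻¹ • x, by rw [CL.Leech.dot_smul, x1], by rw [pull, x2], by rw [pull, x3]⟩,
    g⁻¹ • w, by rw [CL.Leech.dot_smul, w1], by rw [pull, w2], by rw [pull, w3]⟩

end CL.F23
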