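/-
S3355: a small invariant set of vectors gives a subgroup of index 23 or 24.
-/
import Cfsg.Agent.REC.F23.Defs

set_option autoImplicit false

namespace CL.F23

open Matrix Module

variable {G : Type*} [Group G] {ρ : G →* (V →ₗ[ℚ] V)} {b : LinearMap.BilinForm ℚ V} {τ : G}
  {L : Submodule ℤ V} {u x1 : V} {m : ℤ}

/-- Proof.  `x ∈ S`, `H = {g | ρ g x = x ∨ ρ g x = -x}`.  `G ⧸ H` is in bijection with the pairs `{ρ g x, -ρ g x}`, which are
disjoint 2-subsets of `S`, so `2 * index ≤ 48`; representatives span a non-zero invariant subspace, which is `⊤`, so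
`23 ≤ index` (`finrank_span_le_card`/`finrank_range_le_card` for `G ⧸ H → V`, `q ↦ ρ q.out x`). -/
theorem Ctx.idx [Finite G] (h : Ctx ρ b) (S : Set V) (hfin : S.Finite) (hcard : S.ncard ≤ 48) (hne : S.Nonempty)
    (h0 : (0 : V) ∉ S) (hneg : ∀ x ∈ S, -x ∈ S) (hinv : ∀ g, ∀ x ∈ S, ρ g x ∈ S) : Idx G := by
  classical
  obtain ⟨x, hx⟩ := hne
  have hx0 : x ≠ 0 := fun e => h0 (e ▸ hx)
  have hm : ∀ (g k : G) (y : V), ρ (g * k) y = ρ g (ρ k y) := fun g k y => by
    rw [map_mul, Module.End.mul_apply]
  have hi : ∀ (g : G) (y : V), ρ g⁻¹ (ρ g y) = y := fun g y => by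
    rw [← hm, inv_mul_cancel, map_one, Module.End.one_apply]
  let H : Subgroup G :=
    { carrier := {g | ρ g x = x ∨ ρ g x = -x}
      one_mem' := Or.inl (by rw [map_one, Module.End.one_apply])
      mul_mem' := by
        rintro g k (hg | hg) (hk | hk) <;> simp [hg, hk]
      inv_mem' := by
        rintro g (hg | hg)
        · exact Or.inl (by conv_lhs => rw [← hg, hi])
        · refine Or.inr ?_
          have := hi g x
          rw [hg, map_neg] at this
          exact neg_eq_iff_eq_neg.1 this }
  have hH : ∀ g, g ∈ H ↔ ρ g x = x ∨ ρ g x = -x := fun g => Iff.rfl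
  let f : G ⧸ H → V := fun q => ρ q.out x
  have hf : ∀ g : G, ρ g x = f g ∨ ρ g x = -f g := fun g => by
    obtain ⟨k, hk⟩ := QuotientGroup.mk_out_eq_mul H g
    simp only [f]
    rw [hk, hm]
    rcases (hH _).1 k.2 with e | e
    · exact Or.inl (by rw [e])
    · exact Or.inr (by rw [e, map_neg, neg_neg])
  have hf0 : ∀ q, f q ≠ 0 := fun q e => h0 (e ▸ hinv _ _ hx)
  have hinj : ∀ q q', f q = f q' ∨ f q = -f q' → q = q' := fun q q' e => by
    rw [← q.out_eq, ← q'.out_eq]
    symm
    apply Quotient.sound'
    rw [QuotientGroup.leftRel_apply, hH, hm]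
    rcases e with e | e
    · exact Or.inl (by simp only [f] at e; rw [e, hi])
    · exact Or.inr (by simp only [f] at e; rw [e, map_neg, hi])
  have hup : Nat.card (G ⧸ H) * 2 ≤ 48 := by
    let F : (G ⧸ H) × Bool → S := fun p =>
      ⟨if p.2 then f p.1 else -f p.1, by
        split_ifs
        · exact hinv _ _ hx
        · exact hneg _ (hinv _ _ hx)⟩
    have hne : ∀ q, f q ≠ -f q := fun q e => hf0 q (by
      have : (2 : ℚ) • f q = 0 := by rw [two_smul]; exact add_eq_zero_iff_eq_neg.2 e
      exact (smul_eq_zero.1 this).resolve_left two_ne_zero)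
    have hF : Function.Injective F := by
      rintro ⟨q, s⟩ ⟨q', s'⟩ e
      have e := congrArg Subtype.val e
      cases s <;> cases s' <;> simp only [F, if_true, Bool.false_eq_true, if_false] at e
      · rw [hinj q q' (Or.inl (neg_injective e))]
      · obtain rfl := hinj q q' (Or.inr (neg_eq_iff_eq_neg.1 e))
        exact absurd e.symm (hne q)
      · obtain rfl := hinj q q' (Or.inr e)
        exact absurd e (hne q)
      · rw [hinj q q' (Or.inl e)]
    have := hfin.to_subtype
    have h1 := Nat.card_le_card_of_injective F hF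
    rw [Nat.card_prod, Nat.card_eq_fintype_card (α := Bool), Fintype.card_bool, Nat.card_coe_set_eq] at h1
    exact h1.trans hcard
  have hlow : 23 ≤ Nat.card (G ⧸ H) := by
    have := Fintype.ofFinite (G ⧸ H)
    have hW : Submodule.span ℚ (Set.range f) = ⊤ := by
      refine (h.irr _ fun g w hw => ?_).resolve_left fun e => ?_
      · induction hw using Submodule.span_induction with
        | mem w hw =>
          obtain ⟨q, rfl⟩ := hw
          simp only [f]
          rw [← hm]
          rcases hf (g * q.out) with e | e <;> rw [e]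
          · exact Submodule.subset_span ⟨_, rfl⟩
          · exact Submodule.neg_mem _ (Submodule.subset_span ⟨_, rfl⟩)
        | zero => rw [map_zero]; exact Submodule.zero_mem _
        | add y z _ _ hy hz => rw [map_add]; exact Submodule.add_mem _ hy hz
        | smul c y _ hy => rw [map_smul]; exact Submodule.smul_mem _ c hy
      · have : f ((1 : G) : G ⧸ H) ∈ Submodule.span ℚ (Set.range f) := Submodule.subset_span ⟨_, rfl⟩
        rw [e, Submodule.mem_bot] at this
        exact hf0 _ this
    have h1 := finrank_range_le_card (R := ℚ) f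
    rw [Set.finrank, hW, finrank_top, finrank_fin_fun] at h1
    rwa [Nat.card_eq_fintype_card]
  refine ⟨H, ?_⟩
  rw [Subgroup.index]
  omega

/-- no invariant line -/
theorem Ctx.eq_zero (h : Ctx ρ b) {x : V} (hx : ∀ g, ∃ c : ℚ, ρ g x = c • x) : x = 0 := by
  by_contra h0
  rcases h.irr (Submodule.span ℚ {x}) (fun g w hw => by
    obtain ⟨a, rfl⟩ := Submodule.mem_span_singleton.1 hw
    obtain ⟨c, hc⟩ := hx g
    rw [map_smul, hc]
    exact Submodule.smul_mem _ _ (Submodule.smul_mem _ _ (Submodule.mem_span_singleton_self x))) with e | e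
  · exact h0 (Submodule.span_singleton_eq_bot.1 e)
  · have := finrank_span_singleton (K := ℚ) h0
    rw [e, finrank_top, finrank_fin_fun] at this
    omega

/-- no invariant hyperplane: the orbit of a non-zero vector leaves `u^⊥` -/
theorem Ctx.exists_ne (h : Ctx ρ b) {x u : V} (hx : x ≠ 0) (hu : u ≠ 0) : ∃ g, b u (ρ g x) ≠ 0 := by
  by_contra hn
  push Not at hn
  let W : Submodule ℚ V :=
    { carrier := {y | ∀ g, b u (ρ g y) = 0}
      zero_mem' := fun g => by simp
      add_mem' := fun {y z} hy hz g => by rw [map_add, map_add, hy g, hz g, add_zero]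
      smul_mem' := fun c y hy g => by rw [map_smul, map_smul, hy g, smul_zero] }
  rcases h.irr W (fun g w hw k => by
    rw [← Module.End.mul_apply, ← map_mul]; exact hw _) with e | e
  · have : x ∈ W := hn
    rw [e, Submodule.mem_bot] at this
    exact hx this
  · have : u ∈ W := by rw [e]; trivial
    have h1 := this 1
    rw [map_one, Module.End.one_apply] at h1
    exact (h.pos u hu).ne' h1

end CL.F23
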