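/-
S3355: an isometry of order 23 of a symmetric form of rank at most 11 over a prime field.
-/
import Cfsg.Agent.REC.F23.Defs

set_option autoImplicit false

namespace CL.F23

open Matrix Module

theorem LQ.key : ∀ (a : ZMod 23) (r : Fin 6), a ^ (r.1 + r.1) = 1 → r.1 = 0 ∨ a = 1 ∨ a = 22 := by
  decide +kernel

theorem LQ.det_alt {q r : ℕ} (hr : Odd r) (C : Matrix (Fin r) (Fin r) (ZMod q)) :
    (C - Cᵀ).det = 0 := by
  choose D hD using fun i j => ZMod.intCast_surjective (C i j)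
  have e : C - Cᵀ = (Int.castRingHom (ZMod q)).mapMatrix (Matrix.of D - (Matrix.of D)ᵀ) := by
    ext i j
    simp [hD]
  have h : (Matrix.of D - (Matrix.of D)ᵀ).det = 0 := by
    have := det_transpose (Matrix.of D - (Matrix.of D)ᵀ)
    rw [transpose_sub, transpose_transpose, ← neg_sub, det_neg, Fintype.card_fin,
      hr.neg_one_pow] at this
    omega
  rw [e, ← RingHom.map_det, h, map_zero]

/-- the rank of an alternating matrix is even -/
theorem LQ.even_rank {q n : ℕ} [Fact q.Prime] (C : Matrix (Fin n) (Fin n) (ZMod q)) :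
    Even (C - Cᵀ).rank := by
  by_contra ho
  rw [Nat.not_even_iff_odd] at ho
  obtain ⟨K, hK⟩ := (LinearMap.ker (C - Cᵀ).mulVecLin).exists_isCompl
  have hd : finrank (ZMod q) K = (C - Cᵀ).rank := by
    have h1 := Submodule.finrank_add_eq_of_isCompl hK
    have h2 := LinearMap.finrank_range_add_finrank_ker (C - Cᵀ).mulVecLin
    change (C - Cᵀ).rank + _ = _ at h2
    omega
  let b := Module.finBasisOfFinrankEq (ZMod q) K hd
  let P : Matrix (Fin n) (Fin (C - Cᵀ).rank) (ZMod q) := Matrix.of fun i j => (b j : Fin n → ZMod q) i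
  have hP : ∀ y, P *ᵥ y = (b.equivFun.symm y : K) := fun y => by
    ext i
    simp [P, mulVec, dotProduct, mul_comm]
  have h0 := LQ.det_alt ho (Pᵀ * C * P)
  rw [transpose_mul, transpose_mul, transpose_transpose, ← Matrix.mul_assoc, ← Matrix.sub_mul,
    ← Matrix.mul_sub] at h0
  obtain ⟨y, hy, e⟩ := exists_mulVec_eq_zero_iff.2 h0
  have h1 : (C - Cᵀ) *ᵥ (P *ᵥ y) = 0 := by
    refine dotProduct_eq_zero _ fun z => ?_
    obtain ⟨u, hu, v, hv, rfl⟩ := Submodule.mem_sup.1 (hK.sup_eq_top.ge (Submodule.mem_top (x := z)))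
    have h2 : u ⬝ᵥ (C - Cᵀ) *ᵥ (P *ᵥ y) = 0 := by
      rw [dotProduct_mulVec, ← mulVec_transpose, transpose_sub, transpose_transpose, ← neg_sub,
        neg_mulVec, show (C - Cᵀ) *ᵥ u = 0 from hu, neg_zero, zero_dotProduct]
    have h3 : v ⬝ᵥ (C - Cᵀ) *ᵥ (P *ᵥ y) = 0 := by
      have : v = P *ᵥ b.equivFun ⟨v, hv⟩ := by rw [hP, LinearEquiv.symm_apply_apply]
      rw [this, ← vecMul_transpose, ← dotProduct_mulVec, mulVec_mulVec, mulVec_mulVec, e,
        dotProduct_zero]
    rw [dotProduct_comm, add_dotProduct, h2, h3, add_zero]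
  have h2 : P *ᵥ y = 0 := (Submodule.disjoint_def.1 hK.disjoint) _ h1 (by
    rw [hP]; exact Subtype.property _)
  rw [hP, ZeroMemClass.coe_eq_zero, EmbeddingLike.map_eq_zero_iff] at h2
  exact hy h2

/-- Proof.  `E = Fin 23 → ZMod q`, `β x y = x ⬝ᵥ B *ᵥ y`, `S = T ^ 22 = T⁻¹`, `ω x y := β ((T - S) x) y` is alternating
(`β (T x) x = β x (S x)`), with matrix `C = (T - S)ᵀ * B`, `rank C ≤ rank B ≤ 11`.  The rank of an alternating form is
even (search the library: symplectic bases / `IsAlt`; or induction on dimension).  `T` acts on `Q = E ⧸ ker ω`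
(or on the image `range ((T - S) * ·) mod rad β`, any convenient model) without non-zero fixed vector: if
`(T - 1) x ∈ ker ω` then `(T - S)(T - 1) x ∈ rad β`; modulo `rad β` the map `T` has order dividing 23, coprime to `q`,
`T + 1` is invertible (`T = (T²)^12`) and `(T-1)² z ∈ rad → (T-1) z ∈ rad` (apply `∑ i < 23, T^i`: on `w = (T-1) z` it
gives `0 = 23 w` mod rad).  So `23 ∣ q ^ rank ω - 1` (orbit counting, `IsPGroup.card_modEq_card_fixedPoints` or
`MulAction`-free argument), so `rank ω ∈ {0, 11}` as `q ≢ ±1 mod 23` (order of `q` mod 23 divides 22), hence `0`: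
`B * (T - S) = 0`-type identity, `T² ≡ 1`, `T ≡ 1` modulo the radical. -/
theorem lq (q : ℕ) [Fact q.Prime] (h23 : q ≠ 23) (h1 : q % 23 ≠ 1) (h22 : q % 23 ≠ 22)
    (B T : Matrix (Fin 23) (Fin 23) (ZMod q)) (hs : B.IsSymm) (hT : Tᵀ * B * T = B) (h : T ^ 23 = 1)
    (hr : B.rank ≤ 11) : B * T = B := by
  classical
  have : Fact (Nat.Prime 23) := ⟨by norm_num⟩
  have t1 : T * T ^ 22 = 1 := by rw [← pow_succ', h]
  have t2 : T ^ 22 * T = 1 := by rw [← pow_succ, h]
  have e1 : Tᵀ * B = B * T ^ 22 := by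
    conv_rhs => rw [← hT]
    rw [Matrix.mul_assoc, t1, Matrix.mul_one]
  have e2 : (T ^ 22)ᵀ * B = B * T := by
    conv_lhs => rw [← hT]
    rw [← Matrix.mul_assoc, ← Matrix.mul_assoc, ← transpose_mul, t1, transpose_one, Matrix.one_mul]
  obtain ⟨A, hA⟩ : ∃ A, A = B * (T - T ^ 22) := ⟨_, rfl⟩
  have ev : Even A.rank := by
    have := LQ.even_rank (B * T)
    rwa [transpose_mul, hs.eq, e1, ← Matrix.mul_sub, ← hA] at this
  have le : A.rank ≤ 11 := hA ▸ (rank_mul_le_left _ _).trans hr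
  have e3 : (T ^ 22)ᵀ * A = A * T := by
    rw [hA, ← Matrix.mul_assoc, e2, Matrix.mul_assoc, Matrix.mul_assoc, Matrix.mul_sub,
      Matrix.sub_mul, t1, t2]
  let f : Function.End (LinearMap.range A.mulVecLin) := fun u => ⟨(T ^ 22)ᵀ *ᵥ u.1, by
    obtain ⟨_, x, rfl⟩ := u
    exact ⟨T *ᵥ x, by simp only [mulVecLin_apply, mulVec_mulVec, e3]⟩⟩
  have hf : ∀ (k : ℕ) (x), (f ^ k) ⟨A *ᵥ x, x, rfl⟩ = ⟨A *ᵥ (T ^ k *ᵥ x), _, rfl⟩ := by
    intro k
    induction k with
    | zero => intro x; exact Subtype.ext (by rw [pow_zero T, one_mulVec]; rfl)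
    | succ k ih =>
      intro x
      rw [pow_succ']
      change f ((f ^ k) _) = _
      rw [ih]
      apply Subtype.ext
      change (T ^ 22)ᵀ *ᵥ (A *ᵥ (T ^ k *ᵥ x)) = A *ᵥ (T ^ (k + 1) *ᵥ x)
      simp only [mulVec_mulVec]
      rw [← Matrix.mul_assoc, e3, Matrix.mul_assoc, ← pow_succ']
  have h1' : f ^ 23 ^ 1 = 1 := by
    funext ⟨_, x, rfl⟩
    refine (hf _ x).trans (Subtype.ext ?_)
    change A *ᵥ (T ^ 23 ^ 1 *ᵥ x) = A *ᵥ x
    rw [pow_one, h, one_mulVec]
  let _ : Fintype (LinearMap.range A.mulVecLin) := Fintype.ofFinite _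
  have hc := Equiv.Perm.card_fixedPoints_modEq h1'
  have h0 : Fintype.card f.fixedPoints = 1 := by
    rw [Fintype.card_eq_one_iff]
    refine ⟨⟨0, Subtype.ext (mulVec_zero (T ^ 22)ᵀ)⟩, ?_⟩
    rintro ⟨⟨_, x, rfl⟩, hx⟩
    refine Subtype.ext (Subtype.ext ?_)
    change A *ᵥ x = 0
    have h2 : ∀ k : ℕ, A *ᵥ (T ^ k *ᵥ x) = A *ᵥ x := fun k => by
      have : (f ^ k) ⟨A *ᵥ x, x, rfl⟩ = ⟨A *ᵥ x, x, rfl⟩ := by
        induction k with
        | zero => rfl
        | succ k ih =>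
          rw [pow_succ']
          change f ((f ^ k) _) = _
          rw [ih]
          exact hx
      exact congrArg Subtype.val ((hf k x).symm.trans this)
    have h3 : T * ∑ i ∈ Finset.range 23, T ^ i = ∑ i ∈ Finset.range 23, T ^ i := by
      have := mul_geom_sum T 23
      rwa [h, sub_self, sub_mul, one_mul, sub_eq_zero] at this
    have h4 : T ^ 22 * ∑ i ∈ Finset.range 23, T ^ i = ∑ i ∈ Finset.range 23, T ^ i := by
      conv_lhs => rw [← h3]
      rw [← mul_assoc, t2, one_mul]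
    have h5 : A * ∑ i ∈ Finset.range 23, T ^ i = 0 := by
      rw [hA, mul_assoc, sub_mul, h3, h4, sub_self, mul_zero]
    have h6 := congrArg (· *ᵥ x) h5
    simp only [← mulVec_mulVec, sum_mulVec, mulVec_sum, h2, Finset.sum_const, Finset.card_range,
      zero_mulVec] at h6
    rw [← Nat.cast_smul_eq_nsmul (ZMod q), smul_eq_zero] at h6
    refine h6.resolve_left fun e => h23 ?_
    rw [ZMod.natCast_eq_zero_iff] at e
    exact (Nat.prime_dvd_prime_iff_eq Fact.out Fact.out).1 e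
  rw [h0, ← Nat.card_eq_fintype_card, Module.natCard_eq_pow_finrank (K := ZMod q), Nat.card_zmod,
    ← ZMod.natCast_eq_natCast_iff] at hc
  change ((q ^ A.rank : ℕ) : ZMod 23) = _ at hc
  obtain ⟨r, hr2⟩ := ev
  have hz : A.rank = 0 := by
    rw [hr2, Nat.cast_pow, Nat.cast_one] at hc
    rcases LQ.key q ⟨r, by omega⟩ hc with e | e | e
    · change r = 0 at e
      omega
    · exact (h1 ((ZMod.natCast_eq_natCast_iff' q 1 23).1 e)).elim
    · exact (h22 ((ZMod.natCast_eq_natCast_iff' q 22 23).1 e)).elim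
  have hA0 : A = 0 := by
    have : LinearMap.range A.mulVecLin = ⊥ := Submodule.finrank_eq_zero.1 hz
    exact Matrix.toLin'.injective (by rw [map_zero]; exact LinearMap.range_eq_bot.1 this)
  have e4 : B * T ^ 2 = B := by
    rw [hA0, mul_sub, eq_comm, sub_eq_zero] at hA
    rw [pow_two, ← mul_assoc, hA, mul_assoc, t2, mul_one]
  have e5 : ∀ k : ℕ, B * (T ^ 2) ^ k = B := fun k => by
    induction k with
    | zero => rw [pow_zero, mul_one]
    | succ k ih => rw [pow_succ', ← mul_assoc, e4, ih]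
  have := e5 12
  rwa [← pow_mul, show 2 * 12 = 23 + 1 from rfl, pow_succ, h, one_mul] at this

end CL.F23
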