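/-
S3355: short vectors of the rank 22 lattice through the Leech lattice.
-/
import Cfsg.Agent.REC.F23.Glue
import Cfsg.Agent.REC.F23.LF

set_option autoImplicit false

namespace CL.F23

open Matrix Module

variable {U : Type} [AddCommGroup U] [Module ℚ U] [FiniteDimensional ℚ U]
  {c : LinearMap.BilinForm ℚ U} {T : U →ₗ[ℚ] U} {K : Submodule ℤ U} {y0 : U} {m : ℤ}

omit [FiniteDimensional ℚ U] in
theorem Cy.min44 (h : Cy c T K y0 m) (h2 : ∀ x ∈ K, c x x ≠ 2) {y : U} (hy : y ≠ 0) (ht : T y - y ∈ K) :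
    44 ≤ 23 * c y y := by
  have mem : ∀ i : ℕ, (T ^ i) y - y ∈ K := fun i => by
    induction i with
    | zero => simp
    | succ i ih => simpa [pow_succ'] using K.add_mem (h.inv _ ih) ht
  have iso : ∀ i : ℕ, c ((T ^ i) y) ((T ^ i) y) = c y y := fun i => by
    induction i with
    | zero => rfl
    | succ i ih => rw [pow_succ', Module.End.mul_apply, h.iso, ih]
  have p23 : Function.IsPeriodicPt T 23 y := by
    have := congrArg (fun f : U →ₗ[ℚ] U => f y) (mul_geom_sum T 23)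
    simp only [Module.End.mul_apply, LinearMap.sum_apply, h.sum, map_zero, LinearMap.sub_apply, Module.End.one_apply] at this
    rw [Function.IsPeriodicPt, Function.IsFixedPt, ← Module.End.pow_apply, ← sub_eq_zero, ← this]
  have key : ∀ i ∈ Finset.range 22, c y ((T ^ (i + 1)) y) ≤ c y y - 2 := fun i hi => by
    have n : (T ^ (i + 1)) y - y ≠ 0 := fun e => by
      have := Function.IsPeriodicPt.gcd (show Function.IsPeriodicPt T (i + 1) y by
        rw [Function.IsPeriodicPt, Function.IsFixedPt, ← Module.End.pow_apply, ← sub_eq_zero, e]) p23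
      rw [Nat.Coprime.gcd_eq_one (Nat.Coprime.symm ((Nat.Prime.coprime_iff_not_dvd (by norm_num)).2
        (Nat.not_dvd_of_pos_of_lt i.succ_pos (Nat.succ_lt_succ (Finset.mem_range.1 hi)))))] at this
      have s := h.sum y
      simp only [Module.End.pow_apply, (Function.IsFixedPt.iterate (show Function.IsFixedPt T y from this) _).eq,
        Finset.sum_const, Finset.card_range, ← Nat.cast_smul_eq_nsmul ℚ] at s
      exact hy ((smul_eq_zero_iff_right (by norm_num)).1 s)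
    obtain ⟨k, hk⟩ := h.even _ (mem (i + 1))
    have a := h.pos _ n
    have b := h2 _ (mem (i + 1))
    have : (2 : ℚ) ≤ k := by
      have h1 : 0 < k := by exact_mod_cast (show (0 : ℚ) < k by linarith)
      have h3 : k ≠ 1 := fun l => b (by rw [l] at hk; push_cast at hk; linarith)
      exact_mod_cast (show 2 ≤ k by omega)
    simp only [map_sub, LinearMap.sub_apply, iso, h.symm _ y] at hk
    linarith
  have s := congrArg (c y) (h.sum y)
  have := Finset.sum_le_sum key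
  rw [Finset.sum_range_succ', map_add, map_sum, map_zero] at s
  simp at this s
  linarith

/-- Proof.  `t` from `Cy.qr`; `Cy.glue` with `A = !![4, 1; 1, 6]`, `f0 = ![-1/23, 4/23]` (`A f0 = (0,1)`, norm `4/23`; the
other dual basis vector `(6,-1)/23 ≡ -6 f0`) gives an even unimodular `M` of rank 24.
No roots: let `p = (y, f) ∈ M` have norm 2, `A f = (a, b)` integral, `23 N(f) = 6a² - 2ab + 4b² ∈ {0} ∪ [4, ∞)`.
`T^i y - y ∈ K` has norm `0` or `≥ 4`.  If `T^i y = y` for some `0 < i < 23` then `y = 0` (`T` is a power of `T^i`: `T^23 = 1`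
follows from `sum`; then `sum` gives `23 y = 0`), `f` is integral (`23 ∣ j`) of norm `4a² + 2ab + 6b² ≠ 2`.  Otherwise
`c y (T^i y) ≤ c y y - 2` for `0 < i < 23`, and `0 = c y (∑ T^i y) ≤ 23 c y y - 44`, so `23 N(f) ≤ 2`, `f = 0`, `y ∈ K`,
a root of `K`.  So `EU.leech` applies; `f1 = φ (0, e₀)`, `f2 = φ (0, e₁)`; pull back the vectors of `leech_tri`:
`x = (x', f)` with `A f = 0` gives `x' ∈ K` of norm 4, `w = (y, f)` with `A f = (2, 3)` has `N(f) = 48/23`. -/
theorem Cy.short (h : Cy c T K y0 m) (h2 : ∀ x ∈ K, c x x ≠ 2) :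
    (∃ x ∈ K, c x x = 4) ∧ ∃ y, Dual c K y ∧ c y y = 44 / 23 := by
  obtain ⟨t, ht, n, hn⟩ := h.qr
  have mv : ∀ f : Fin 2 → ℚ, toQ !![4, 1; 1, 6] *ᵥ f = ![4 * f 0 + f 1, f 0 + 6 * f 1] := fun f => by
    ext i; fin_cases i <;> simp [mulVec, dotProduct]
  have q : ∀ f g : Fin 2 → ℚ, f ⬝ᵥ toQ !![4, 1; 1, 6] *ᵥ g = f 0 * (4 * g 0 + g 1) + f 1 * (g 0 + 6 * g 1) := fun f g => by
    simp [mv, dotProduct]
  have E := h.glue t ht !![4, 1; 1, 6] (by ext i j; fin_cases i <;> fin_cases j <;> rfl) (fun f hf => by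
      rw [q]
      by_cases e : f 0 = 0
      · have : f 1 ≠ 0 := fun l => hf (by ext i; fin_cases i <;> simp [e, l])
        rw [e]; nlinarith [mul_self_pos.2 this]
      · nlinarith [mul_self_pos.2 e, sq_nonneg (f 0 + f 1), sq_nonneg (f 1)])
    (by decide) ![-1 / 23, 4 / 23] (Fin.forall_fin_two.2 ⟨⟨0, by rw [mv]; norm_num⟩, ⟨1, by rw [mv]; norm_num⟩⟩)
    (Fin.forall_fin_two.2 ⟨⟨-1, by norm_num⟩, ⟨4, by norm_num⟩⟩) (fun f hf => by
      obtain ⟨a, ha⟩ := hf 0
      obtain ⟨b, hb⟩ := hf 1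
      simp [mv] at ha hb
      exact ⟨b - 6 * a, Fin.forall_fin_two.2 ⟨⟨0, by simp; linarith⟩, ⟨a, by simp; linarith⟩⟩⟩)
    ⟨n, by
      have : (4 - t ^ 2 * m : ℚ) = 46 * n := by exact_mod_cast hn
      rw [q]; simp; linarith⟩
  have zs : ∀ (k : ℤ) {x : U}, x ∈ K → (k : ℚ) • x ∈ K := fun k x hx => by
    rw [Int.cast_smul_eq_zsmul]; exact K.smul_mem k hx
  have inK : ∀ p ∈ gLat K ((t : ℚ) • y0) ![-1 / 23, 4 / 23], 4 * p.2 0 + p.2 1 = 0 → p.2 0 + 6 * p.2 1 = 0 →
      p.1 ∈ K ∧ p.2 0 = 0 ∧ p.2 1 = 0 := by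
    rintro p ⟨j, h1, h3⟩ e1 e2
    obtain ⟨a, ha⟩ := h3 0
    have e0 : p.2 0 = 0 := by linarith
    simp [e0] at ha
    refine ⟨?_, e0, by linarith⟩
    convert K.add_mem h1 (zs (a * t) h.y23) using 1
    rw [show (j : ℚ) = 23 * a by linarith]
    push_cast
    module
  obtain ⟨φ, hφ⟩ := E.leech (by rw [finrank_prod, h.dim, finrank_fin_fun]) (by
    intro p hp e
    rw [gForm_apply, q] at e
    obtain ⟨j, h1, h3⟩ := id hp
    obtain ⟨a, ha⟩ := h3 0
    obtain ⟨b, hb⟩ := h3 1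
    simp at ha hb
    obtain ⟨u, hu⟩ : ∃ u : ℤ, 4 * p.2 0 + p.2 1 = u := ⟨4 * a + b, by push_cast; linarith⟩
    obtain ⟨v, hv⟩ : ∃ v : ℤ, p.2 0 + 6 * p.2 1 = v := ⟨a + 6 * b + j, by push_cast; linarith⟩
    have e' : 4 * (46 - 23 * c p.1 p.1) = ((4 * v - u) ^ 2 + 23 * u ^ 2 : ℤ) := by
      push_cast; rw [← hu, ← hv]; linarith
    by_cases y0' : p.1 = 0
    · have : (4 * v - u) ^ 2 + 23 * u ^ 2 = 184 := by
        rw [y0'] at e'; simp only [map_zero] at e'; norm_num at e'; exact_mod_cast e'.symm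
      have l1 : u < 3 := by nlinarith [sq_nonneg (4 * v - u)]
      have l2 : -3 < u := by nlinarith [sq_nonneg (4 * v - u)]
      have l3 : v < 5 := by nlinarith [sq_nonneg u]
      have l4 : -5 < v := by nlinarith [sq_nonneg u]
      interval_cases u <;> interval_cases v <;> simp at this
    have := h.min44 h2 y0' (by
      convert K.add_mem (K.sub_mem (h.inv _ h1) h1) (zs (j * t) h.triv) using 1
      simp only [map_sub, map_smul]
      push_cast
      module)
    have : (4 * v - u) ^ 2 + 23 * u ^ 2 ≤ 8 := by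
      have : (((4 * v - u) ^ 2 + 23 * u ^ 2 : ℤ) : ℚ) ≤ 8 := by linarith
      exact_mod_cast this
    obtain rfl : u = 0 := by nlinarith [sq_nonneg (4 * v - u)]
    obtain rfl : v = 0 := by nlinarith
    exact h2 _ (inK p hp (by simpa using hu) (by simpa using hv)).1 (by simp at e'; linarith))
  have mem : ∀ i, ((0 : U), Pi.single i (1 : ℚ)) ∈ gLat K ((t : ℚ) • y0) ![-1 / 23, 4 / 23] := fun i =>
    ⟨0, by simp, fun k => ⟨Pi.single (M := fun _ => ℤ) i 1 k, by by_cases e : k = i <;> simp [e]⟩⟩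
  obtain ⟨⟨x, x1, x2, x3⟩, w, w1, w2, w3⟩ := leech_tri (φ ⟨_, mem 0⟩) (φ ⟨_, mem 1⟩)
    (Int.cast_injective (α := ℚ) (by rw [hφ, gForm_apply, q]; norm_num))
    (Int.cast_injective (α := ℚ) (by rw [hφ, gForm_apply, q]; norm_num))
    (Int.cast_injective (α := ℚ) (by rw [hφ, gForm_apply, q]; norm_num))
  obtain ⟨x, rfl⟩ := φ.surjective x
  obtain ⟨w, rfl⟩ := φ.surjective w
  apply_fun (Int.cast : ℤ → ℚ) at x1 x2 x3 w1 w2 w3
  rw [hφ, gForm_apply, q] at x1 x2 x3 w1 w2 w3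
  simp at x2 x3 w2 w3
  obtain ⟨k1, k2, k3⟩ := inK _ x.2 (by linarith) (by linarith)
  refine ⟨⟨_, k1, by simp [k2, k3] at x1; linarith⟩, w.1.1, fun z hz => ?_, ?_⟩
  · obtain ⟨j, h1, -⟩ := w.2
    exact ((int_of_even h.symm h.even _ h1 z hz).add ((IsZ.int (j * t)).mul (h.dual z hz))).of_eq (by simp; ring)
  · rw [show w.1.2 0 = 9 / 23 by linarith, show w.1.2 1 = 10 / 23 by linarith] at w1
    norm_num at w1
    linarith

end CL.F23
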