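/-
S3355: the possible values of m.
-/
import Cfsg.Agent.REC.F23.StB
import Cfsg.Agent.REC.F23.Short
import Cfsg.Agent.REC.F23.LN

set_option autoImplicit false

namespace CL.F23

open Matrix Module

variable {G : Type*} [Group G] {ρ : G →* (V →ₗ[ℚ] V)} {b : LinearMap.BilinForm ℚ V} {τ : G}
  {L : Submodule ℤ V} {u x1 : V} {m : ℤ}

theorem M2.u_ne (h : St ρ b τ L u x1 m) : u ≠ 0 := fun e => by
  have := h.uu
  rw [e, map_zero] at this
  exact mul_ne_zero (by norm_num) h.m_ne this.symm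

theorem M2.min (h : St ρ b τ L u x1 m) (h2 : NoRoot b L u) {x : V} (hx : x ∈ L)
    (h0 : pr b u m x ≠ 0) : 44 / 23 ≤ b (pr b u m x) (pr b u m x) :=
  h.min44 h2 (h.bu_pr x) h0 fun i => by
    rw [h.pr_pow]
    exact L.sub_mem (h.pow_mem i hx) hx

theorem M2.key : ∀ (n : Fin 49) (t : ZMod 23), t ^ 2 * (n.1 : ZMod 23) = 4 → 2 ∣ n.1 → ¬ 8 ∣ n.1 →
    ¬ 9 ∣ n.1 → n.1 = 2 ∨ n.1 = 4 ∨ n.1 = 6 ∨ n.1 = 12 ∨ n.1 = 26 := by
  decide +kernel

/-- the rank 22 lattice: `U = u^⊥ = LinearMap.ker (b u)`, `c = b.restrict`, `T = (ρ τ).restrict`,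
`K = L.comap subtype` (`isLattice_comap`), `y0 = pr x1` (`b x1 x1 = c y0 y0 + m/23` is even; `dual0`, `pr23`, `pr_pow`). -/
theorem St.cy (h : St ρ b τ L u x1 m) :
    ∃ (T : LinearMap.ker (b u) →ₗ[ℚ] LinearMap.ker (b u)) (y0 : LinearMap.ker (b u)),
      Cy (b.restrict (LinearMap.ker (b u))) T
        (L.comap ((LinearMap.ker (b u)).subtype.restrictScalars ℤ)) y0 m := by
  have hW : ∀ x ∈ LinearMap.ker (b u), ρ τ x ∈ LinearMap.ker (b u) := fun x hx => by
    have := h.bu_pow 1 x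
    rw [pow_one] at this
    exact this.trans hx
  have hT : ∀ (i : ℕ) (x : LinearMap.ker (b u)),
      ((((ρ τ).restrict hW) ^ i) x : V) = (ρ τ ^ i) x := fun i => by
    induction i with
    | zero => exact fun _ => rfl
    | succ i ih => exact fun x => by rw [pow_succ, pow_succ, Module.End.mul_apply, ih]; rfl
  have hm := h.m_ne
  refine ⟨(ρ τ).restrict hW, ⟨pr b u m x1, h.bu_pr x1⟩, ?_, fun x y => h.ctx.symm x y,
    fun x hx => h.ctx.pos x fun e => hx (Subtype.ext e), isLattice_comap h.lat _,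
    fun x hx => h.even x hx, fun x y => h.ctx.inv τ x y, fun x => Subtype.ext ?_,
    fun x hx => h.inv τ x hx, fun y hy => ?_, h.pr23 h.x1_mem, fun y hy => ?_, ?_, ?_, h.ev, h.n23⟩
  · have := Module.Dual.finrank_ker_add_one_of_ne_zero (f := b u) fun e => M2.u_ne h (by
      by_contra h0
      have := h.ctx.pos u h0
      rw [e] at this
      exact lt_irrefl _ this)
    rw [Module.finrank_fin_fun] at this
    omega
  · rw [Submodule.coe_sum]
    simp only [hT]
    rw [h.sum_pow, show b u x = 0 from x.2, zero_div, zero_smul]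
    rfl
  · exact (h.int _ h.x1_mem _ hy).of_eq (h.pr_left x1 y.2)
  · exact h.dual0 y.2 fun x hx h0 => hy ⟨x, h0⟩ hx
  · have := h.pr_pow 1 x1
    rw [pow_one] at this
    change ρ τ (pr b u m x1) - pr b u m x1 ∈ L
    rw [this]
    exact L.sub_mem (h.inv τ _ h.x1_mem) h.x1_mem
  · refine (h.even _ h.x1_mem).of_eq ?_
    change (b (pr b u m x1) (pr b u m x1) + m / 23) / 2 = _
    rw [h.pr_pr, h.ux1]
    field_simp
    ring

/-- Proof.  `Cy.short` gives `x ∈ L ∩ u^⊥` of norm 4; `Ctx.exists_ne` gives `x' = ρ g x ∈ L` with `b u x' = k m`, `k ≠ 0`;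
`b (pr x') (pr x') = 4 - k² m / 23`.  `pr x' ≠ 0` (else `k² m = 92`, `23 ∤ m`), so `min44` gives `k² m ≤ 48`, `m ≤ 48`.
With `Cy.qr` (`46 ∣ 4 - t² m`, i.e. `m` is a square mod 23), `ev`, `n8`, `n9`, `n23`: `interval_cases`/`decide`. -/
theorem St.m_cases (h : St ρ b τ L u x1 m) (h2 : NoRoot b L u) : m = 2 ∨ ∃ s, MS m s := by
  obtain ⟨T, y0, hc⟩ := h.cy
  obtain ⟨⟨x, hx, h4⟩, -⟩ := hc.short fun x hx => h2 x hx x.2
  obtain ⟨t, -, ht⟩ := hc.qr
  have h4' : b x x = 4 := h4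
  obtain ⟨g, hg⟩ := h.ctx.exists_ne (x := (x : V)) (fun e => by rw [e] at h4'; simp at h4')
    (M2.u_ne h)
  have hx' := h.inv g x hx
  obtain ⟨k, hk⟩ := h.dvd _ hx'
  have hk0 : k ≠ 0 := by
    rintro rfl
    exact hg (by rw [hk]; simp)
  have hm := h.m_ne
  have e : b (pr b u m (ρ g x)) (pr b u m (ρ g x)) = 4 - (k * k * m : ℤ) / 23 := by
    rw [h.pr_pr, h.ctx.inv, h4', hk]
    push_cast
    field_simp
  have hp := h.pos
  have k1 : 1 ≤ k * k := by nlinarith [mul_self_pos.2 hk0]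
  have hle : m ≤ 48 := by
    by_cases h0 : pr b u m (ρ g x) = 0
    · rw [h0, map_zero] at e
      have e1 : k * k * m = 92 := by
        have : ((k * k * m : ℤ) : ℚ) = 92 := by linarith
        exact_mod_cast this
      have := h.n23
      by_contra! hl
      have : k * k = 1 := by nlinarith
      rw [this] at e1
      omega
    · have := M2.min h h2 hx' h0
      rw [e] at this
      have e1 : k * k * m ≤ 48 := by
        have : ((k * k * m : ℤ) : ℚ) ≤ 48 := by linarith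
        exact_mod_cast this
      nlinarith
  obtain ⟨n, rfl⟩ := Int.eq_ofNat_of_zero_le hp.le
  have h5 : (t : ZMod 23) ^ 2 * (n : ZMod 23) = 4 := by
    have := (ZMod.intCast_zmod_eq_zero_iff_dvd _ 23).2 ((show (23 : ℤ) ∣ 46 by norm_num).trans ht)
    push_cast at this
    exact (sub_eq_zero.1 this).symm
  have h6 := h.ev
  have h8 := h.n8
  have h9 := h.n9
  rw [Int.even_coe_nat, even_iff_two_dvd] at h6
  have := M2.key ⟨n, by omega⟩ t h5 h6 (fun e => h8 (by exact_mod_cast e))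
    fun e => h9 (by exact_mod_cast e)
  change n = 2 ∨ n = 4 ∨ n = 6 ∨ n = 12 ∨ n = 26 at this
  rcases this with rfl | rfl | rfl | rfl | rfl
  · exact Or.inl rfl
  · exact Or.inr ⟨1, Or.inl ⟨rfl, rfl⟩⟩
  · exact Or.inr ⟨1, Or.inr (Or.inl ⟨rfl, rfl⟩)⟩
  · exact Or.inr ⟨5, Or.inr (Or.inr (Or.inl ⟨rfl, rfl⟩))⟩
  · exact Or.inr ⟨9, Or.inr (Or.inr (Or.inr ⟨rfl, rfl⟩))⟩

/-- Proof.  `Cy.short` gives `y ∈ u^⊥` dual to `L ∩ u^⊥` of norm `44/23`; `dual0`: `y ≡ j pr x1`, comparing norms modulo 2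
`44 ≡ -2 j² mod 46`, `j ≡ ±1 mod 23`; so `± y + u/23 ∈ L` is a root (`pr23`).  Let `S` be the set of roots of `L`.
A root `r` has `b u r = 2k`, `k ≠ 0`, `pr r ≠ 0`, `b (pr r) (pr r) = 2 - 2k²/23 ≥ 44/23` (`min44`), so `k = ±1`.
Two roots `r, r'` with `k = 1`: `r - T^i r' ∈ L ∩ u^⊥` has norm `0` or `≥ 4`, and `∑ i < 23, b r (T^i r') = 2 > 0`, so
`r = T^i r'` for some `i`.  So `|S| ≤ 46`; `Ctx.idx`. -/
theorem St.idx_of_two [Finite G] (h : St ρ b τ L u x1 2) (h2 : NoRoot b L u) : Idx G := by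
  obtain ⟨T, y0, hc⟩ := h.cy
  obtain ⟨-, ⟨y, hy0⟩, hy, h44⟩ := hc.short fun x hx => h2 x hx x.2
  have hy0' : b u y = 0 := hy0
  have h44' : b y y = 44 / 23 := h44
  obtain ⟨j, hj⟩ := h.dual0 hy0' fun x hx h0 => hy ⟨x, h0⟩ hx
  have huu := h.uu
  have hp : pr b u 2 x1 = x1 - (1 / 23 : ℚ) • u := by
    rw [pr, h.ux1]
    norm_num
  have root : ∀ (y : V) (a : ℤ), b u y = 0 → b y y = 44 / 23 →
      y - ((1 + 23 * a : ℤ) : ℚ) • pr b u 2 x1 ∈ L → ∃ r ∈ L, b r r = 2 ∧ b u r = 2 := by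
    intro y a h0 h1 h3
    refine ⟨y + (1 / 23 : ℚ) • u, ?_, ?_, ?_⟩
    · convert L.add_mem (L.add_mem h3 (zsmul_mem' a (h.pr23 h.x1_mem))) h.x1_mem using 1
      rw [hp]
      push_cast
      module
    · simp only [map_add, map_smul, LinearMap.add_apply, LinearMap.smul_apply, smul_eq_mul, h0, h1,
        h.ctx.symm y u, huu]
      norm_num
    · simp only [map_add, map_smul, smul_eq_mul, h0, huu]
      norm_num
  obtain ⟨r0, hr0, e0, u0⟩ : ∃ r ∈ L, b r r = 2 ∧ b u r = 2 := by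
    obtain ⟨z, hz⟩ : ∃ z, z = y - (j : ℚ) • pr b u 2 x1 := ⟨_, rfl⟩
    have hz0 : b u z = 0 := by rw [hz, map_sub, map_smul, hy0', h.bu_pr, smul_zero, sub_zero]
    have hzL : z ∈ L := hz ▸ hj
    obtain ⟨n1, e1⟩ := h.even _ hzL
    obtain ⟨n2, e2⟩ := h.int _ h.x1_mem _ hzL
    obtain ⟨n3, e3⟩ := h.even _ h.x1_mem
    rw [← h.pr_left _ hz0] at e2
    have e4 := h.pr_pr x1 x1
    rw [h.ux1] at e4
    have e5 : y = z + (j : ℚ) • pr b u 2 x1 := by rw [hz, sub_add_cancel]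
    have e6 := h44'
    rw [e5] at e6
    simp only [map_add, map_smul, LinearMap.add_apply, LinearMap.smul_apply, smul_eq_mul,
      h.ctx.symm z (pr b u 2 x1), e2, e4] at e6
    have e7 : (j - 1) * (j + 1) = 23 * (n1 + j * n2 + j * j * n3 - 1) := by
      have : (((j - 1) * (j + 1) : ℤ) : ℚ) = ((23 * (n1 + j * n2 + j * j * n3 - 1) : ℤ) : ℚ) := by
        push_cast at e6 ⊢
        linear_combination (-23 / 2) * e6 + 23 * e1 + 23 * j * j * e3
      exact_mod_cast this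
    rcases (Int.prime_iff_natAbs_prime.2 (by norm_num) : Prime (23 : ℤ)).dvd_or_dvd ⟨_, e7⟩ with
      ⟨a, ha⟩ | ⟨a, ha⟩
    · exact root y a hy0' h44' (by rwa [show 1 + 23 * a = j by omega])
    · refine root (-y) (-a) (by rw [map_neg, hy0', neg_zero]) (by simpa using h44') ?_
      convert L.neg_mem hj using 1
      rw [show 1 + 23 * -a = -j by omega]
      push_cast
      module
  have s2 : ∀ r ∈ L, b r r = 2 → b u r = 2 ∨ b u r = -2 := by
    intro r hr e
    obtain ⟨k, hk⟩ := h.dvd r hr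
    have hk0 : k ≠ 0 := by
      rintro rfl
      exact h2 r hr (by rw [hk]; simp) e
    have e1 : b (pr b u 2 r) (pr b u 2 r) = 2 - 2 * (k * k : ℤ) / 23 := by
      rw [h.pr_pr, e, hk]
      push_cast
      ring
    have k1 : k * k = 1 := by
      by_cases h0 : pr b u 2 r = 0
      · rw [h0, map_zero] at e1
        have e2 : k * k = 23 := by
          have : ((k * k : ℤ) : ℚ) = 23 := by linarith
          exact_mod_cast this
        have : k ≤ 5 := by nlinarith
        have : -5 ≤ k := by nlinarith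
        interval_cases k <;> omega
      · have := M2.min h h2 hr h0
        rw [e1] at this
        have e2 : k * k ≤ 1 := by
          have : ((k * k : ℤ) : ℚ) ≤ 1 := by linarith
          exact_mod_cast this
        have := mul_self_pos.2 hk0
        omega
    rcases mul_self_eq_one_iff.1 k1 with rfl | rfl
    · left; rw [hk]; norm_num
    · right; rw [hk]; norm_num
  have s3 : ∀ r ∈ L, b r r = 2 → b u r = 2 → ∃ i ∈ Finset.range 23, (ρ τ ^ i) r0 = r := by
    intro r hr e e'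
    by_contra! hn
    have h1 : ∀ i ∈ Finset.range 23, b r ((ρ τ ^ i) r0) ≤ 0 := fun i hi => by
      have hd := L.sub_mem (h.pow_mem i hr0) hr
      have hp := h.ctx.pos _ (sub_ne_zero.2 (hn i hi))
      obtain ⟨n, hn⟩ := h.even _ hd
      have h3 := h2 _ hd (by rw [map_sub, h.bu_pow, u0, e', sub_self])
      have e3 : b ((ρ τ ^ i) r0 - r) ((ρ τ ^ i) r0 - r) = 4 - 2 * b r ((ρ τ ^ i) r0) := by
        simp only [map_sub, LinearMap.sub_apply, h.iso_pow, h.ctx.symm ((ρ τ ^ i) r0) r, e, e0]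
        ring
      have hn0 : 0 < n := by
        have : (0 : ℚ) < n := by linarith
        exact_mod_cast this
      have hn1 : n ≠ 1 := by
        rintro rfl
        apply h3
        push_cast at hn
        linarith
      have : (2 : ℚ) ≤ n := by exact_mod_cast (by omega : 2 ≤ n)
      linarith
    have h3 := Finset.sum_nonpos h1
    rw [← map_sum, h.sum_pow, u0, map_smul, h.ctx.symm, e'] at h3
    norm_num at h3
  classical
  have sub : {r | r ∈ L ∧ b r r = 2} ⊆ (((Finset.range 23).image (fun i => (ρ τ ^ i) r0) ∪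
      (Finset.range 23).image (fun i => -(ρ τ ^ i) r0) : Finset V) : Set V) := by
    rintro r ⟨hr, e⟩
    rw [Finset.mem_coe, Finset.mem_union, Finset.mem_image, Finset.mem_image]
    rcases s2 r hr e with e' | e'
    · exact Or.inl (s3 r hr e e')
    · obtain ⟨i, hi, e1⟩ := s3 (-r) (L.neg_mem hr) (by simpa using e) (by rw [map_neg, e', neg_neg])
      exact Or.inr ⟨i, hi, by rw [e1, neg_neg]⟩
  refine h.ctx.idx {r | r ∈ L ∧ b r r = 2} ((Finset.finite_toSet _).subset sub) ?_ ⟨r0, hr0, e0⟩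
    (fun h0 => by simpa using h0.2) (fun x hx => ⟨L.neg_mem hx.1, by simpa using hx.2⟩)
    fun g x hx => ⟨h.inv g x hx.1, by rw [h.ctx.inv, hx.2]⟩
  refine (Set.ncard_le_ncard sub (Finset.finite_toSet _)).trans ?_
  rw [Set.ncard_coe_finset]
  refine (Finset.card_union_le _ _).trans ?_
  have c1 := Finset.card_image_le (s := Finset.range 23) (f := fun i => (ρ τ ^ i) r0)
  have c2 := Finset.card_image_le (s := Finset.range 23) (f := fun i => -(ρ τ ^ i) r0)
  rw [Finset.card_range] at c1 c2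
  omega

end CL.F23
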