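/-
S3355: orders of elements of finite subgroups of GL(23, Z).
-/
import Cfsg.Agent.REC.F23.ModA

set_option autoImplicit false

namespace CL.F23

open Matrix Module

variable {G : Type*} [Group G] {σ : G →* MZ} {B : MZ}

theorem toQ_pow {r : ℕ} (A : Matrix (Fin r) (Fin r) ℤ) (k : ℕ) : toQ (A ^ k) = toQ A ^ k :=
  map_pow (Int.castRingHom ℚ).mapMatrix A k

theorem IsMod.cyc_dvd (h : IsMod σ B) {q : ℕ} [hq : Fact q.Prime] {a : G} (ha : orderOf a = q) :
    Polynomial.cyclotomic q ℚ ∣ (toQ (σ a)).charpoly := by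
  by_contra n
  obtain ⟨u, v, e⟩ := ((Polynomial.cyclotomic.irreducible_rat hq.out.pos).coprime_iff_not_dvd).2 n
  have e1 := congrArg (Polynomial.aeval (toQ (σ a))) e
  have e2 := congrArg (Polynomial.aeval (toQ (σ a))) (Polynomial.cyclotomic_prime_mul_X_sub_one ℚ q)
  simp only [map_add, map_mul, aeval_self_charpoly, mul_zero, add_zero, map_one, map_sub, map_pow, Polynomial.aeval_X] at e1 e2
  rw [← toQ_pow, ← map_pow, ← ha, pow_orderOf_eq_one, map_one, toQ_one, sub_self, ha] at e2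
  have : toQ (σ a) = toQ 1 := by rw [toQ_one, ← sub_eq_zero, ← one_mul (_ - _), ← e1, mul_assoc, e1, e2, mul_zero]
  rw [h.inj ((toQ_inj this).trans (map_one σ).symm), orderOf_one] at ha
  exact hq.out.one_lt.ne ha

/-- Proof.  Cauchy: `a` of order `q`, `T = toQ (σ a) ≠ 1`, `T ^ q = 1`, so `minpoly ℚ T ∣ X^q - 1 = (X - 1) * Φ_q`.
`Φ_q` is irreducible (`Polynomial.cyclotomic.irreducible_rat`); if it does not divide `minpoly` it is coprime to it
and `minpoly ∣ X - 1`, `T = 1`.  So `q - 1 = deg Φ_q ≤ deg charpoly = 23` (`Matrix.minpoly_dvd_charpoly`), and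
24 is not prime. -/
theorem IsMod.prime_le [Finite G] (h : IsMod σ B) (q : ℕ) (hq : q.Prime) (hd : q ∣ Nat.card G) : q ≤ 23 := by
  have := Fact.mk hq
  obtain ⟨a, ha⟩ := exists_prime_orderOf_dvd_card' q hd
  have := Polynomial.natDegree_le_of_dvd (h.cyc_dvd ha) (charpoly_monic _).ne_zero
  rw [Polynomial.natDegree_cyclotomic, Nat.totient_prime hq, charpoly_natDegree_eq_dim, Fintype.card_fin] at this
  by_contra n
  obtain rfl : q = 24 := by omega
  exact absurd hq (by decide)

/-- Proof.  A subgroup `E` of order `23 ^ 2` (`Sylow.exists_subgroup_card_pow_prime`) maps injectively to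
`GL (Fin 23) (ZMod 5)`: if the kernel is non-trivial it contains `a` of order 23 with `σ a ≡ 1 mod 5`; then
`N = ∑ i < 23, σ a ^ i ≡ 23 • 1 mod 5` has non-zero determinant and `N * (σ a - 1) = σ a ^ 23 - 1 = 0`, so `σ a = 1`.
But `23 ^ 2 ∤ |GL(23, 5)| = ∏ i, (5^23 - 5^i)` (`Matrix.card_GL_field`, `decide +kernel`/`norm_num`). -/
theorem IsMod.not_sq_dvd [Finite G] (h : IsMod σ B) : ¬ 23 ^ 2 ∣ Nat.card G := by
  intro hd
  have : Fact (Nat.Prime 23) := ⟨by norm_num⟩
  have : Fact (Nat.Prime 5) := ⟨by norm_num⟩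
  obtain ⟨E, hE⟩ := Sylow.exists_subgroup_card_pow_prime 23 hd
  let m : MZ →+* Matrix (Fin 23) (Fin 23) (ZMod 5) := (Int.castRingHom (ZMod 5)).mapMatrix
  have := Subgroup.card_dvd_of_injective ((m.toMonoidHom.comp σ).toHomUnits.comp E.subtype) (by
    rw [injective_iff_map_eq_one]
    intro a ha
    have e : m (σ a) = 1 := congrArg Units.val ha
    have g := geom_sum_mul (σ a) (23 ^ 2)
    rw [← map_pow, ← Subgroup.coe_pow, ← hE, pow_card_eq_one', Subgroup.coe_one, map_one, sub_self, hE] at g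
    have d : (∑ i ∈ Finset.range (23 ^ 2), σ a ^ i).det ≠ 0 := fun l => by
      have := (Int.castRingHom (ZMod 5)).map_det (∑ i ∈ Finset.range (23 ^ 2), σ a ^ i)
      rw [l, map_zero, map_sum] at this
      simp only [map_pow, show (Int.castRingHom (ZMod 5)).mapMatrix (σ a) = 1 from e, one_pow, Finset.sum_const,
        Finset.card_range] at this
      rw [← Nat.cast_smul_eq_nsmul (ZMod 5), det_smul, det_one, mul_one] at this
      exact absurd (pow_eq_zero_iff (by simp) |>.1 this.symm) (by rw [ZMod.natCast_eq_zero_iff]; decide)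
    have := (isRegular_of_isLeftRegular_det (IsRegular.of_ne_zero d).left).left (g.trans (mul_zero _).symm)
    exact Subtype.ext (h.inj ((sub_eq_zero.1 this).trans (map_one σ).symm)))
  rw [hE, card_GL_field, ZMod.card] at this
  exact absurd this (by decide +kernel)

/-- The fixed space of an element of order 23 is a line.
Proof.  `T = toQ (σ τ)`.  Existence: `θ = T - T⁻¹` has `B θ` skew of odd size, so `det θ = 0`, there is `x ≠ 0`
with `T² x = x`, so `T x = T^24 x = x`... (`T = (T²)^12`).  Uniqueness: `T ≠ 1`, so `w = (T - 1) v ≠ 0` for some `v`,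
`Φ(T) w = 0` with `Φ = ∑ i < 23, X^i = cyclotomic 23 ℚ` irreducible of degree 22; hence `w, T w, …, T^21 w` are
linearly independent (a polynomial `p ≠ 0` of degree `< 22` is coprime to `Φ`), they lie in `ker Φ(T)`, which meets
`ker (T - 1)` trivially (`Φ(T) x = 23 x` there).  So `finrank ker (T - 1) ≤ 1`. -/
theorem IsMod.fix_line (h : IsMod σ B) (τ : G) (hτ : orderOf τ = 23) :
    ∃ u : V, u ≠ 0 ∧ ∀ x, toQ (σ τ) *ᵥ x = x ↔ ∃ c : ℚ, x = c • u := by
  have : Fact (Nat.Prime 23) := ⟨by norm_num⟩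
  obtain ⟨r, hr⟩ := h.cyc_dvd hτ
  have n0 := (charpoly_monic (toQ (σ τ))).ne_zero
  have d := charpoly_natDegree_eq_dim (toQ (σ τ))
  rw [hr] at n0 d
  rw [Polynomial.natDegree_mul' (by rwa [← Polynomial.leadingCoeff_mul, Polynomial.leadingCoeff_ne_zero]),
    Polynomial.natDegree_cyclotomic, Nat.totient_prime this.out, Fintype.card_fin] at d
  replace d : r.natDegree = 1 := by omega
  obtain ⟨c, hc⟩ := Polynomial.exists_root_of_degree_eq_one
    ((Polynomial.degree_eq_iff_natDegree_eq_of_pos one_pos).2 d)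
  obtain ⟨u, hu⟩ := ((Module.End.hasEigenvalue_iff_isRoot_charpoly (toLin' (toQ (σ τ))) c).2 (by
    rw [charpoly_toLin', hr]; exact hc.dvd (dvd_mul_left _ _))).exists_hasEigenvector
  obtain rfl : c = 1 := by
    have := hu.pow_apply 23
    rw [← toLin'_pow, ← toQ_pow, ← map_pow, orderOf_dvd_iff_pow_eq_one.1 hτ.dvd, map_one, toQ_one, toLin'_one] at this
    refine (by decide : Odd 23).pow_injective ((smul_left_injective ℚ hu.2 ?_).trans (one_pow 23).symm)
    exact this.symm.trans (one_smul _ _).symm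
  have k := LinearMap.finrank_eigenspace_le (toLin' (toQ (σ τ))) 1
  rw [charpoly_toLin', hr, Polynomial.rootMultiplicity_mul n0, Polynomial.rootMultiplicity_eq_zero (by
    rw [Polynomial.IsRoot, Polynomial.eval_one_cyclotomic_prime]; norm_num), zero_add] at k
  have u0 : (⟨u, hu.1⟩ : End.eigenspace (toLin' (toQ (σ τ))) 1) ≠ 0 := fun l => hu.2 (congrArg Subtype.val l)
  have k' := (finrank_eq_one_iff_of_nonzero' (K := ℚ) _ u0).1 (le_antisymm (k.trans (by
    rw [← Polynomial.count_roots, ← d]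
    exact (Multiset.count_le_card _ _).trans (Polynomial.card_roots' r))) (finrank_pos_iff_exists_ne_zero.2 ⟨_, u0⟩))
  refine ⟨u, hu.2, fun x => ⟨fun e => ?_, ?_⟩⟩
  · obtain ⟨c, hc⟩ := k' ⟨x, End.mem_eigenspace_iff.2 (e.trans (one_smul _ _).symm)⟩
    exact ⟨c, (congrArg Subtype.val hc).symm⟩
  · rintro ⟨c, rfl⟩
    rw [mulVec_smul]
    exact congrArg _ (hu.apply_eq_smul.trans (one_smul _ _))

end CL.F23
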