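/-
S3355: absolute irreducibility, orthogonality relations, irreducibility modulo q.
-/
import Cfsg.Agent.REC.F23.ModA

set_option autoImplicit false

namespace CL.F23

open Matrix Module

variable {G : Type*} [Group G] {σ : G →* MZ} {B : MZ}

theorem det_skew {C : Matrix (Fin 23) (Fin 23) ℚ} (h : Cᵀ = -C) : C.det = 0 := by
  have := det_neg C
  rw [← h, det_transpose, Fintype.card_fin] at this
  linarith

theorem IsMod.eq_zero (h : IsMod σ B) {C : Matrix (Fin 23) (Fin 23) ℚ}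
    (hC : ∀ g, ∃ X : Matrix (Fin 23) (Fin 23) ℚ, C * toQ (σ g) = X * C) (e : C.det = 0) : C = 0 := by
  obtain ⟨v, hv, e⟩ := exists_mulVec_eq_zero_iff.2 e
  rcases h.irr (LinearMap.ker C.mulVecLin) fun g w hw => by
    obtain ⟨X, hX⟩ := hC g
    rw [LinearMap.mem_ker, mulVecLin_apply] at hw ⊢
    rw [mulVec_mulVec, hX, ← mulVec_mulVec, hw, mulVec_zero] with l | l
  · exact absurd (l.le e) hv
  · exact ext_iff_mulVec.2 fun w => (l.ge trivial : w ∈ LinearMap.ker C.mulVecLin).trans (zero_mulVec w).symm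

theorem IsMod.mul_eq (h : IsMod σ B) (g : G) : toQ B * toQ (σ g) = (toQ (σ g⁻¹))ᵀ * toQ B := by
  conv_lhs => rw [← h.invQ g⁻¹, mul_assoc, ← toQ_mul, ← map_mul, inv_mul_cancel, map_one, toQ_one, mul_one]

/-- Schur: the commutant consists of scalars.
Proof.  Let `D` be the commutant (`Subalgebra.centralizer ℚ` of the range, in matrices or `Module.End ℚ V`).
A non-zero `a ∈ D` is invertible (kernel is invariant), inverse in `D`.  Adjoint `a* = B⁻¹ aᵀ B ∈ D`.
If `a* = -a` then `B a` is skew of odd size 23, `det (B a) = 0`, so `a = 0`; apply to `a - a*`: every `a ∈ D`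
is self-adjoint, so `D` is commutative (`ab = (ab)* = b* a* = ba`).  `D` is a field/division ring
(`DivisionRing.ofIsUnitOrEqZero` or `IsField`), `finrank ℚ D * finrank D V = 23` (`Module.finrank_mul_finrank`).
If `finrank ℚ D = 1` we are done.  Otherwise `V = D v`; `σ g v = d v` gives `σ g = d` (`σ g (e v) = e d v = d e v`),
so `σ g ∈ D` is self-adjoint and orthogonal: `(σ g)² = 1`, `(σ g - 1)(σ g + 1) = 0`, `σ g = ±1`; then every line is
invariant, contradicting irreducibility in dimension 23. -/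
theorem IsMod.schur (h : IsMod σ B) (A : Matrix (Fin 23) (Fin 23) ℚ)
    (hA : ∀ g, toQ (σ g) * A = A * toQ (σ g)) : ∃ c : ℚ, A = c • (1 : Matrix (Fin 23) (Fin 23) ℚ) := by
  let D := Subalgebra.centralizer ℚ (Set.range fun g => toQ (σ g))
  have mem : ∀ {a}, a ∈ D ↔ ∀ g, toQ (σ g) * a = a * toQ (σ g) := Set.forall_mem_range
  have unit : ∀ a ∈ D, a ≠ 0 → IsUnit a := fun a ha n => by
    rw [isUnit_iff_isUnit_det, isUnit_iff_ne_zero]
    exact fun e => n (h.eq_zero (fun g => ⟨_, (mem.1 ha g).symm⟩) e)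
  have adj : ∀ a ∈ D, aᵀ * toQ B = toQ B * a := fun a ha => sub_eq_zero.1 (h.eq_zero (fun g => ⟨(toQ (σ g⁻¹))ᵀ, by
    rw [sub_mul, mul_sub, mul_assoc, h.mul_eq, ← mul_assoc, ← transpose_mul, mem.1 ha, transpose_mul, mul_assoc (toQ B),
      ← mem.1 ha, ← mul_assoc (toQ B), h.mul_eq, mul_assoc, mul_assoc]⟩)
    (det_skew (by rw [transpose_sub, transpose_mul, transpose_mul, transpose_transpose, h.symmQ, neg_sub])))
  have comm : ∀ a ∈ D, ∀ b ∈ D, a * b = b * a := fun a ha b hb => h.unitQ.mul_left_cancel (by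
    rw [← adj _ (mul_mem ha hb), transpose_mul, mul_assoc, adj a ha, ← mul_assoc, adj b hb, mul_assoc])
  have : NoZeroDivisors D := ⟨fun {a b} e => by
    by_contra! n
    exact n.2 (Subtype.ext ((unit a a.2 fun l => n.1 (Subtype.ext l)).mul_right_eq_zero.1 (congrArg Subtype.val e)))⟩
  have : IsDomain D := NoZeroDivisors.to_isDomain D
  letI := divisionRingOfFiniteDimensional ℚ D
  have k := Module.finrank_mul_finrank ℚ D V
  rw [finrank_fin_fun] at k
  rcases (by norm_num : Nat.Prime 23).prime.irreducible.isUnit_or_isUnit k.symm with k | k <;> rw [Nat.isUnit_iff] at k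
  · obtain ⟨c, hc⟩ := (Subalgebra.finrank_eq_one_iff.1 k).le (mem.2 hA)
    exact ⟨c, hc.symm.trans (Algebra.algebraMap_eq_smul_one c)⟩
  obtain ⟨v, hv, gen⟩ := finrank_eq_one_iff'.1 k
  have := h.irr (ℚ ∙ v) fun g w hw => by
    obtain ⟨d, hd⟩ := gen (toQ (σ g) *ᵥ v)
    have e : toQ (σ g) = d := ext_iff_mulVec.2 fun w => by
      obtain ⟨e, rfl⟩ := gen w
      change _ *ᵥ (e.1 *ᵥ v) = _ *ᵥ (e.1 *ᵥ v)
      rw [mulVec_mulVec, mem.1 e.2, ← mulVec_mulVec, ← hd, mulVec_mulVec, comm _ d.2 _ e.2, ← mulVec_mulVec]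
      rfl
    have : d * d = 1 := Subtype.ext (h.unitQ.mul_left_cancel (by
      change toQ B * (d.1 * d.1) = toQ B * 1
      rw [← mul_assoc, ← adj _ d.2, ← e, h.invQ, mul_one]))
    rcases mul_self_eq_one_iff.1 this with rfl | rfl
    · simpa [e] using hw
    · simpa [e, neg_mulVec] using hw
  rcases this with l | l
  · exact absurd (Submodule.span_singleton_eq_bot.1 l) hv
  · have := finrank_span_singleton (K := ℚ) hv
    rw [l, finrank_top, finrank_fin_fun] at this
    omega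

/-- Orthogonality relations: apply `schur` to `∑ g, σ g * E_{jk} * σ g⁻¹` and take traces. -/
theorem IsMod.orth [Fintype G] (h : IsMod σ B) (i j k l : Fin 23) :
    23 * ∑ g, σ g i j * σ g⁻¹ k l = if j = k ∧ i = l then (Fintype.card G : ℤ) else 0 := by
  obtain ⟨c, hc⟩ := h.schur (∑ g, toQ (σ g) * single j k 1 * toQ (σ g⁻¹)) fun a => by
    rw [Finset.mul_sum, Finset.sum_mul]
    exact Fintype.sum_equiv (Equiv.mulLeft a) _ _ fun g => by
      rw [Equiv.coe_mulLeft, mul_assoc _ (toQ (σ (a * g)⁻¹)), ← toQ_mul, ← map_mul, _root_.mul_inv_rev, inv_mul_cancel_right,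
        map_mul, toQ_mul]
      simp only [mul_assoc]
  have t := congrArg trace hc
  have e := congrFun (congrFun hc i) l
  simp only [trace_sum, trace_mul_cycle _ (single j k (1 : ℚ)), ← toQ_mul, ← map_mul, inv_mul_cancel, map_one, toQ_one, one_mul,
    trace_smul, trace_one, Finset.sum_const, Finset.card_univ, Fintype.card_fin] at t
  have s : ∀ g, (toQ (σ g) * single j k (1 : ℚ) * toQ (σ g⁻¹)) i l = (σ g i j * σ g⁻¹ k l : ℤ) := fun g => by
    simp [mul_apply, single, ite_and]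
  simp only [Matrix.sum_apply, s] at e
  apply Int.cast_injective (α := ℚ)
  rw [Int.cast_mul, Int.cast_sum, e]
  by_cases hjk : j = k
  · subst hjk
    rw [trace_single_eq_same] at t
    by_cases hil : i = l <;> simp [hil] at t ⊢
    rw [t, mul_comm]
  · rw [trace_single_eq_of_ne _ _ _ hjk] at t
    simp at t
    simp [hjk, t]

theorem IsMod.dvd_card [Finite G] (h : IsMod σ B) : 23 ∣ Nat.card G := by
  have := Fintype.ofFinite G
  have := h.orth 0 0 0 0
  rw [if_pos ⟨rfl, rfl⟩, ← Nat.card_eq_fintype_card] at this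
  exact Int.natCast_dvd_natCast.1 ⟨_, this.symm⟩

/-- Irreducible modulo every prime `q` not dividing `|G|/23`.
Proof.  `c := |G|/23`.  If `w ∈ W`, `w j ≠ 0`, then for each `i`, by `orth`,
`∑ g, (σ g⁻¹ j i) • (σ g *ᵥ w) = (c * w j) • e_i ∈ W`, and `c * w j ≠ 0` in `ZMod q`. -/
theorem IsMod.irr_mod [Finite G] (h : IsMod σ B) (q : ℕ) [Fact q.Prime] (hq : ¬ q ∣ Nat.card G / 23)
    (W : Submodule (ZMod q) (Fin 23 → ZMod q))
    (hW : ∀ g, ∀ w ∈ W, (σ g).map (Int.cast : ℤ → ZMod q) *ᵥ w ∈ W) : W = ⊥ ∨ W = ⊤ := by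
  have := Fintype.ofFinite G
  obtain ⟨c, hc⟩ := h.dvd_card
  rw [hc, Nat.mul_div_cancel_left _ (by decide), ← ZMod.natCast_eq_zero_iff] at hq
  have o : ∀ i j k l, ∑ g, (σ g i j : ZMod q) * σ g⁻¹ k l = if j = k ∧ i = l then (c : ZMod q) else 0 := fun i j k l => by
    have := h.orth i j k l
    rw [← Nat.card_eq_fintype_card, hc] at this
    have : ∑ g, σ g i j * σ g⁻¹ k l = if j = k ∧ i = l then (c : ℤ) else 0 := by
      split_ifs at this ⊢ <;> omega
    simpa using congrArg (Int.cast : ℤ → ZMod q) this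
  rw [or_iff_not_imp_left, ← Ne, Submodule.ne_bot_iff]
  rintro ⟨w, hw, n⟩
  obtain ⟨j, hj⟩ := Function.ne_iff.1 n
  rw [eq_top_iff, ← (Pi.basisFun (ZMod q) (Fin 23)).span_eq, Submodule.span_le]
  rintro _ ⟨i, rfl⟩
  refine (W.smul_mem_iff (mul_ne_zero hq hj)).1 ?_
  convert W.sum_mem (t := Finset.univ) fun g _ => W.smul_mem (σ g⁻¹ j i : ZMod q) (hW g w hw) using 1
  ext a
  simp only [Finset.sum_apply, Pi.smul_apply, mulVec, dotProduct, map_apply, smul_eq_mul, Finset.mul_sum]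
  rw [Finset.sum_comm]
  simp only [← mul_assoc]
  simp only [mul_comm ((σ _⁻¹ j i : ℤ) : ZMod q), ← Finset.sum_mul, o]
  by_cases e : a = i <;> simp [e, Pi.single_apply]

end CL.F23
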