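/-
S3355: models of minimal determinant.
-/
import Cfsg.Agent.REC.F23.Sch
import Cfsg.Agent.REC.F23.Ord
import Cfsg.Agent.REC.F23.Chg
import Cfsg.Agent.REC.F23.LQ

set_option autoImplicit false

namespace CL.F23

open Matrix Module

variable {G : Type*} [Group G]

namespace MinA

/-- reduction modulo `q` -/
def red (q : ℕ) : (Fin 23 → ℤ) →+ (Fin 23 → ZMod q) := (Int.castAddHom (ZMod q)).compLeft (Fin 23)

theorem red_apply (q : ℕ) (x : Fin 23 → ℤ) (i : Fin 23) : red q x i = x i := rfl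

theorem red_sur (q : ℕ) : Function.Surjective (red q) := fun y => by
  choose x hx using fun i => ZMod.intCast_surjective (y i)
  exact ⟨x, funext hx⟩

theorem red_mv (q : ℕ) (A : MZ) (x : Fin 23 → ℤ) :
    red q (A *ᵥ x) = A.map (Int.cast : ℤ → ZMod q) *ᵥ red q x := by
  ext i
  simp [red_apply, mulVec, dotProduct]

/-- the vectors divisible by `q` -/
def qL (q : ℕ) : Submodule ℤ (Fin 23 → ℤ) where
  carrier := {x | ∀ i, (q : ℤ) ∣ x i}
  zero_mem' := fun _ => dvd_zero _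
  add_mem' := fun ha hb i => (ha i).add (hb i)
  smul_mem' := fun c _ ha i => (ha i).mul_left c

theorem red_zero {q : ℕ} {x : Fin 23 → ℤ} : red q x = 0 ↔ x ∈ qL q :=
  funext_iff.trans (forall_congr' fun i => ZMod.intCast_zmod_eq_zero_iff_dvd (x i) q)

theorem mv_mem {q : ℕ} (A : MZ) {x : Fin 23 → ℤ} (h : x ∈ qL q) : A *ᵥ x ∈ qL q :=
  fun i => by
    rw [mulVec, dotProduct]
    exact Finset.dvd_sum fun j _ => (h j).mul_left _

theorem index_qL (q : ℕ) : (qL q).toAddSubgroup.index = q ^ 23 := by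
  have : (qL q).toAddSubgroup = (red q).ker := AddSubgroup.ext fun x => red_zero.symm
  rw [this, AddSubgroup.index_ker, AddMonoidHom.range_eq_top.2 (red_sur q), AddSubgroup.card_top,
    Nat.card_fun, Nat.card_zmod, Nat.card_fin]

/-- the radical modulo `q` -/
def R (B : MZ) (q : ℕ) : Submodule ℤ (Fin 23 → ℤ) := (qL q).comap B.mulVecLin

def R' (B : MZ) (q : ℕ) : Submodule ℤ (Fin 23 → ℤ) where
  carrier := {x | x ∈ R B q ∧ ∀ y ∈ R B q, (q : ℤ) ^ 2 ∣ x ⬝ᵥ B *ᵥ y}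
  zero_mem' := ⟨zero_mem _, fun y _ => by simp⟩
  add_mem' := fun ha hb => ⟨add_mem ha.1 hb.1, fun y hy => by
    rw [add_dotProduct]; exact (ha.2 y hy).add (hb.2 y hy)⟩
  smul_mem' := fun c _ ha => ⟨Submodule.smul_mem _ c ha.1, fun y hy => by
    rw [smul_dotProduct]; exact (ha.2 y hy).mul_left c⟩

theorem qL_le_R (B : MZ) (q : ℕ) : qL q ≤ R B q := fun _ h => mv_mem B h

theorem qL_le_R' (B : MZ) (q : ℕ) : qL q ≤ R' B q := fun _ h => ⟨mv_mem B h, fun _ hy =>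
  Finset.dvd_sum fun i _ => by rw [pow_two]; exact mul_dvd_mul (h i) (hy i)⟩

variable {σ : G →* MZ} {B : MZ} {q : ℕ}

theorem symm (h : IsMod σ B) (x y : Fin 23 → ℤ) : x ⬝ᵥ B *ᵥ y = y ⬝ᵥ B *ᵥ x := by
  rw [dotProduct_mulVec, ← mulVec_transpose, h.symm.eq, dotProduct_comm]

theorem B_mul (h : IsMod σ B) (g : G) : B * σ g = (σ g⁻¹)ᵀ * B := by
  conv_rhs => rw [← h.inv g]
  rw [← Matrix.mul_assoc, ← Matrix.mul_assoc, ← transpose_mul, ← map_mul, mul_inv_cancel, map_one,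
    transpose_one, Matrix.one_mul]

theorem R_inv (h : IsMod σ B) (g : G) (x : Fin 23 → ℤ) (hx : x ∈ R B q) : σ g *ᵥ x ∈ R B q := by
  change B *ᵥ σ g *ᵥ x ∈ qL q
  rw [mulVec_mulVec, B_mul h, ← mulVec_mulVec]
  exact mv_mem _ hx

theorem R'_inv (h : IsMod σ B) (g : G) (x : Fin 23 → ℤ) (hx : x ∈ R' B q) : σ g *ᵥ x ∈ R' B q := by
  refine ⟨R_inv h g x hx.1, fun y hy => ?_⟩
  have := hx.2 _ (R_inv h g⁻¹ y hy)
  rwa [mulVec_mulVec, B_mul h, inv_inv, ← mulVec_mulVec, dotProduct_mulVec, vecMul_transpose] at this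

theorem det_eq {P B' : MZ} {c : ℤ} {d : ℕ} (h1 : Pᵀ * B * P = c • B') (h2 : P.det.natAbs = d) :
    (d : ℤ) ^ 2 * B.det = c ^ 23 * B'.det := by
  have := congrArg Matrix.det h1
  rw [det_mul, det_mul, det_transpose, det_smul, Fintype.card_fin] at this
  rw [← this, ← h2, Int.natCast_natAbs, sq_abs]
  ring

theorem idx_ne (hq : q.Prime) {K : Submodule ℤ (Fin 23 → ℤ)} (h : qL q ≤ K) :
    K.toAddSubgroup.index ≠ 0 :=
  ne_zero_of_dvd_ne_zero (by rw [index_qL]; exact pow_ne_zero _ hq.ne_zero)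
    (AddSubgroup.index_dvd_of_le (H := (qL q).toAddSubgroup) h)

theorem m1 (h : IsMod σ B) (hmin : ∀ (σ' : G →* MZ) (B' : MZ), IsMod σ' B' → B.det ≤ B'.det)
    (hq : q.Prime) : R' B q ≤ qL q := by
  by_contra hn
  obtain ⟨σ', B', P, h', -, -, h1, h2⟩ := h.change (R' B q) (idx_ne hq (qL_le_R' B q)) (R'_inv h)
    (q ^ 2) (pow_pos hq.pos 2) fun x hx y hy => by exact_mod_cast hx.2 y hy.1
  have : (qL q).toAddSubgroup.FiniteIndex := ⟨idx_ne hq le_rfl⟩
  have h3 := AddSubgroup.index_strictAnti (H := (qL q).toAddSubgroup) (K := (R' B q).toAddSubgroup)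
    (lt_of_le_not_ge (qL_le_R' B q) hn)
  rw [index_qL] at h3
  have h4 := det_eq h1 h2
  have h5 := hmin σ' B' h'
  have h6 := h.det_pos
  generalize (R' B q).toAddSubgroup.index = d at h3 h4
  have h7 : (d : ℤ) ^ 2 < ((q ^ 2 : ℕ) : ℤ) ^ 23 := by
    have : d ^ 2 < (q ^ 2) ^ 23 := by
      rw [← pow_mul, mul_comm, pow_mul]
      exact Nat.pow_lt_pow_left h3 two_ne_zero
    exact_mod_cast this
  have h8 : (0 : ℤ) ≤ (d : ℤ) ^ 2 := sq_nonneg _
  nlinarith

theorem m2 (h : IsMod σ B) (hmin : ∀ (σ' : G →* MZ) (B' : MZ), IsMod σ' B' → B.det ≤ B'.det)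
    (hq : q.Prime) : q ^ 23 ≤ (R B q).toAddSubgroup.index ^ 2 ∧
      ∃ (σ' : G →* MZ) (B' P : MZ), IsMod σ' B' ∧ (∀ x, x ∈ R B q ↔ ∃ y, x = P *ᵥ y) ∧
        (∀ g, σ g * P = P * σ' g) ∧ Pᵀ * B * P = (q : ℤ) • B' := by
  obtain ⟨σ', B', P, h', h3, h4, h1, h2⟩ := h.change (R B q) (idx_ne hq (qL_le_R B q)) (R_inv h)
    q hq.pos fun x _ y hy => Finset.dvd_sum fun i _ => (hy i).mul_left _
  refine ⟨?_, σ', B', P, h', h3, h4, h1⟩
  have h4 := det_eq h1 h2
  have h5 := hmin σ' B' h'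
  have h6 := h.det_pos
  generalize (R B q).toAddSubgroup.index = d at h4
  have h7 : (0 : ℤ) ≤ (q : ℤ) ^ 23 := by positivity
  have : (q : ℤ) ^ 23 ≤ (d : ℤ) ^ 2 := by
    by_contra! h8
    nlinarith
  exact_mod_cast this

theorem m3 [Finite G] [Fact q.Prime] (h : IsMod σ B)
    (hmin : ∀ (σ' : G →* MZ) (B' : MZ), IsMod σ' B' → B.det ≤ B'.det)
    (hd : ¬ q ∣ Nat.card G / 23) : R B q ≤ qL q := by
  have hq : q.Prime := Fact.out
  have hk : ∀ x, red q x ∈ LinearMap.ker (B.map (Int.cast : ℤ → ZMod q)).mulVecLin ↔ x ∈ R B q :=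
    fun x => by
      rw [LinearMap.mem_ker, mulVecLin_apply, ← red_mv, red_zero]
      rfl
  rcases h.irr_mod q hd (LinearMap.ker (B.map (Int.cast : ℤ → ZMod q)).mulVecLin) (fun g w hw => by
    obtain ⟨x, rfl⟩ := red_sur q w
    rw [← red_mv, hk]
    exact R_inv h g x ((hk x).1 hw)) with e | e
  · intro x hx
    rw [← hk, e, Submodule.mem_bot] at hx
    exact red_zero.1 hx
  · exfalso
    have : R B q = ⊤ := eq_top_iff.2 fun x _ => (hk x).1 (by rw [e]; trivial)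
    have h1 := (m2 h hmin hq).1
    rw [this, Submodule.top_toAddSubgroup, AddSubgroup.index_top] at h1
    have := Nat.one_lt_pow (n := 23) (by norm_num) hq.one_lt
    omega

theorem m4 [Fact q.Prime] (h : IsMod σ B)
    (hmin : ∀ (σ' : G →* MZ) (B' : MZ), IsMod σ' B' → B.det ≤ B'.det) {τ : G}
    (hτ : orderOf τ = 23) (h23 : q ≠ 23) (h1 : q % 23 ≠ 1) (h22 : q % 23 ≠ 22) {x : Fin 23 → ℤ}
    (hx : x ∈ R B q) : σ τ *ᵥ x - x ∈ qL q := by
  have hq : q.Prime := Fact.out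
  obtain ⟨hd, σ', B', P, h', h3, h4, h5⟩ := m2 h hmin hq
  have hq0 : (q : ℤ) ≠ 0 := by exact_mod_cast hq.ne_zero
  have form : ∀ y y', (P *ᵥ y) ⬝ᵥ B *ᵥ (P *ᵥ y') = q * (y ⬝ᵥ B' *ᵥ y') := fun y y' => by
    rw [← vecMul_transpose, ← dotProduct_mulVec, mulVec_mulVec, mulVec_mulVec, h5, smul_mulVec,
      dotProduct_smul, smul_eq_mul]
  have key : ∀ y, P *ᵥ y ∈ qL q ↔ B' *ᵥ y ∈ qL q := fun y => by
    constructor
    · intro hy i
      have := (qL_le_R' B q hy).2 _ ((h3 _).2 ⟨Pi.single i 1, rfl⟩)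
      rwa [form, symm h', single_dotProduct, one_mul, pow_two, mul_dvd_mul_iff_left hq0] at this
    · intro hy
      refine m1 h hmin hq ⟨(h3 _).2 ⟨y, rfl⟩, fun z hz => ?_⟩
      obtain ⟨y', rfl⟩ := (h3 z).1 hz
      rw [form, symm h', pow_two, mul_dvd_mul_iff_left hq0]
      exact Finset.dvd_sum fun i _ => (hy i).mul_left _
  have hr : (B'.map (Int.cast : ℤ → ZMod q)).rank ≤ 11 := by
    let f : (Fin 23 → ℤ) →+ (Fin 23 → ZMod q) :=
      (B'.map (Int.cast : ℤ → ZMod q)).mulVecLin.toAddMonoidHom.comp (red q)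
    have e1 : f.ker = (qL q).toAddSubgroup.comap P.mulVecLin.toAddMonoidHom := by
      ext y
      change B'.map (Int.cast : ℤ → ZMod q) *ᵥ red q y = 0 ↔ P *ᵥ y ∈ qL q
      rw [← red_mv, red_zero, key]
    have e2 : P.mulVecLin.toAddMonoidHom.range = (R B q).toAddSubgroup := by
      ext z
      exact ⟨fun ⟨y, e⟩ => (h3 z).2 ⟨y, e.symm⟩, fun hz => let ⟨y, e⟩ := (h3 z).1 hz; ⟨y, e.symm⟩⟩
    have e3 : f.range = (LinearMap.range (B'.map (Int.cast : ℤ → ZMod q)).mulVecLin).toAddSubgroup := by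
      ext z
      constructor
      · rintro ⟨y, rfl⟩
        exact ⟨_, rfl⟩
      · rintro ⟨y, rfl⟩
        obtain ⟨y, rfl⟩ := red_sur q y
        exact ⟨y, rfl⟩
    have e4 := f.ker.index.le_refl.antisymm le_rfl
    conv_lhs at e4 => rw [AddSubgroup.index_ker, e3]
    rw [e1, AddSubgroup.index_comap, e2] at e4
    have e5 := AddSubgroup.relIndex_mul_index (H := (qL q).toAddSubgroup)
      (K := (R B q).toAddSubgroup) (qL_le_R B q)
    have e6 : Nat.card (LinearMap.range (B'.map (Int.cast : ℤ → ZMod q)).mulVecLin) =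
        q ^ (B'.map (Int.cast : ℤ → ZMod q)).rank := by
      rw [Module.natCard_eq_pow_finrank (K := ZMod q), Nat.card_zmod]
      rfl
    rw [← e4, index_qL] at e5
    change Nat.card (LinearMap.range (B'.map (Int.cast : ℤ → ZMod q)).mulVecLin) * _ = _ at e5
    rw [e6] at e5
    generalize (B'.map (Int.cast : ℤ → ZMod q)).rank = r at e5 ⊢
    have e7 : q ^ (2 * r + 23) ≤ q ^ 46 := by
      calc q ^ (2 * r + 23) = (q ^ r) ^ 2 * q ^ 23 := by ring
        _ ≤ (q ^ r) ^ 2 * (R B q).toAddSubgroup.index ^ 2 := Nat.mul_le_mul_left _ hd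
        _ = _ := by rw [← mul_pow, e5, ← pow_mul]
    have := (Nat.pow_le_pow_iff_right hq.one_lt).1 e7
    omega
  have hl := lq q h23 h1 h22 (B'.map (Int.cast : ℤ → ZMod q)) ((σ' τ).map (Int.cast : ℤ → ZMod q))
    (h'.symm.map _) (by
      have := congrArg (Int.castRingHom (ZMod q)).mapMatrix (h'.inv τ)
      rw [map_mul, map_mul] at this
      exact this) (by
      have := map_pow (Int.castRingHom (ZMod q)).mapMatrix (σ' τ) 23
      rw [← map_pow, show τ ^ 23 = 1 from hτ ▸ pow_orderOf_eq_one τ, map_one, map_one] at this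
      exact this.symm) hr
  obtain ⟨y, rfl⟩ := (h3 x).1 hx
  rw [mulVec_mulVec, h4, ← mulVec_mulVec, ← mulVec_sub, key, ← red_zero, red_mv, map_sub, red_mv,
    mulVec_sub, mulVec_mulVec, hl, sub_self]

end MinA

/-- Take a model `(σ, B)` with `B.det` (positive) minimal and `τ` of order 23 (`dvd_card`, Cauchy).  For a prime `q` let
`R = {x | ∀ i, q ∣ (B *ᵥ x) i}`, `R' = {x ∈ R | ∀ y ∈ R, q² ∣ x ⬝ᵥ B *ᵥ y}`, `qL = {x | ∀ i, q ∣ x i}` (index `q^23`);
`qL ≤ R' ≤ R`, all invariant (use `(σ g)ᵀ B = B σ g⁻¹`).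
(m1) `R' = qL`: otherwise `index R' < q^23`; `change` with `c = q²` gives `q^46 det B' = index² det B`, `det B' < det B`.
This gives `sq`.
(m2) `change` with `R`, `c = q`: `q^23 det B' = index(R)² det B`, so `index(R)² ≥ q^23`.
`l23` and the primes `q ∤ |G|/23` (this covers `q = 23` by `not_sq_dvd` and `q > 23` by `prime_le`): the kernel of
`B mod q` is invariant, so `⊥` or `⊤` (`irr_mod`); `⊤` means `index R = 1`, against (m2); so `R = qL`.
Remaining primes `q < 23`: `q % 23 ∉ {1, 22}`.  In the model `(σ', B', P)` of (m2), `P y ∈ qL ↔ P y ∈ R' ↔ B' y ≡ 0 mod q`,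
so `q ^ rank (B' mod q) = [R : qL] = q^23 / index R`, whence `rank ≤ 11`; `lq` gives `B' (σ' τ - 1) ≡ 0 mod q`,
i.e. `σ τ x - x = P (σ' τ y - y) ∈ qL` for `x = P y ∈ R`. -/
theorem exists_good [Finite G] {σ : G →* MZ} {B : MZ} (h : IsMod σ B) :
    ∃ (σ' : G →* MZ) (B' : MZ) (τ : G), Good σ' B' τ := by
  classical
  have ex : ∃ n : ℕ, ∃ (σ : G →* MZ) (B : MZ), IsMod σ B ∧ B.det.natAbs = n := ⟨_, σ, B, h, rfl⟩
  obtain ⟨σ, B, h, hn⟩ := Nat.find_spec ex
  have hmin : ∀ (σ' : G →* MZ) (B' : MZ), IsMod σ' B' → B.det ≤ B'.det := fun σ' B' h' => by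
    have := Nat.find_min' ex ⟨σ', B', h', rfl⟩
    have := h.det_pos
    have := h'.det_pos
    omega
  have : Fact (Nat.Prime 23) := ⟨by norm_num⟩
  obtain ⟨τ, hτ⟩ := exists_prime_orderOf_dvd_card' 23 h.dvd_card
  refine ⟨σ, B, τ, h, hτ, fun q hq x hx => ?_, fun q hq x hx => ?_, fun x hx => ?_⟩
  · refine MinA.m1 h hmin hq ⟨fun i => (dvd_pow_self _ two_ne_zero).trans (hx i), fun y _ => ?_⟩
    rw [MinA.symm h]
    exact Finset.dvd_sum fun i _ => (hx i).mul_left _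
  · have : Fact q.Prime := ⟨hq⟩
    by_cases hd : q ∣ Nat.card G / 23
    · have h1 : q ≤ 23 := h.prime_le q hq (hd.trans (Nat.div_dvd_of_dvd h.dvd_card))
      have h2 : q ≠ 23 := by
        rintro rfl
        exact h.not_sq_dvd (by rw [pow_two]; exact Nat.mul_dvd_of_dvd_div h.dvd_card hd)
      refine MinA.m4 h hmin hτ h2 ?_ ?_ hx
      · rw [Nat.mod_eq_of_lt (by omega)]
        exact hq.ne_one
      · rw [Nat.mod_eq_of_lt (by omega)]
        rintro rfl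
        norm_num at hq
    · have h1 : x ∈ MinA.qL q := MinA.m3 h hmin hd hx
      exact (MinA.qL q).sub_mem (MinA.mv_mem _ h1) h1
  · refine MinA.m3 (q := 23) h hmin (fun hd => h.not_sq_dvd ?_) hx
    rw [pow_two]
    exact Nat.mul_dvd_of_dvd_div h.dvd_card hd

end CL.F23
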