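/-
S3355: from matrices to an abstract lattice.
-/
import Cfsg.Agent.REC.F23.Ord
import Cfsg.Agent.REC.F23.Chg

set_option autoImplicit false

namespace CL.F23

open Matrix Module

variable {G : Type*} [Group G]

namespace MinB

theorem toQ_one : toQ (1 : MZ) = 1 := Matrix.map_one _ Int.cast_zero Int.cast_one

theorem toQ_mul (A B : MZ) : toQ (A * B) = toQ A * toQ B := Matrix.map_mul (f := Int.castRingHom ℚ)

/-- integer vectors as rational vectors -/
def cv : (Fin 23 → ℤ) →ₗ[ℤ] V := (Int.castAddHom ℚ).toIntLinearMap.compLeft (Fin 23)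

theorem cv_apply (x : Fin 23 → ℤ) (i : Fin 23) : cv x i = x i := rfl

theorem mv (A : MZ) (x : Fin 23 → ℤ) : toQ A *ᵥ cv x = cv (A *ᵥ x) := by
  ext i
  simp [cv_apply, mulVec, dotProduct]

theorem dot (x y : Fin 23 → ℤ) : cv x ⬝ᵥ cv y = (x ⬝ᵥ y : ℤ) := by
  simp [cv_apply, dotProduct]

theorem cv_single (i : Fin 23) : cv (Pi.single i 1) = Pi.single i 1 := by
  ext j
  simp [cv_apply, Pi.single_apply]

/-- the standard lattice -/
def L : Submodule ℤ V := LinearMap.range cv

theorem exists_mul (x : V) : ∃ n : ℕ, n ≠ 0 ∧ (n : ℚ) • x ∈ L := by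
  refine ⟨∏ i, (x i).den, Finset.prod_ne_zero_iff.2 fun i _ => (x i).den_ne_zero,
    fun i => (∏ j ∈ Finset.univ.erase i, (x j).den : ℕ) * (x i).num, funext fun i => ?_⟩
  rw [cv_apply, Pi.smul_apply, smul_eq_mul, ← Finset.prod_erase_mul _ _ (Finset.mem_univ i),
    Int.cast_mul, ← Rat.mul_den_eq_num]
  push_cast
  ring

theorem lat : L.IsLattice ℚ := by
  refine ⟨?_, ?_⟩
  · rw [L, LinearMap.range_eq_map]
    exact Module.Finite.fg_top.map _
  · rw [eq_top_iff]
    rintro x -
    obtain ⟨n, hn, h⟩ := exists_mul x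
    have := Submodule.smul_mem _ (n : ℚ)⁻¹ (Submodule.subset_span (R := ℚ) h)
    rwa [smul_smul, inv_mul_cancel₀ (Nat.cast_ne_zero.2 hn), one_smul] at this

theorem canc {n : ℤ} (hn : n ≠ 0) {z : Fin 23 → ℤ} (h : ∀ i, n ∣ z i) {x : V}
    (e : cv z = (n : ℚ) • x) : x ∈ L := by
  choose w hw using h
  refine ⟨w, funext fun i => mul_left_cancel₀ (Int.cast_ne_zero.2 hn : (n : ℚ) ≠ 0) ?_⟩
  have := congrFun e i
  rw [cv_apply, hw, Int.cast_mul] at this
  exact this

end MinB

/-- `ρ g := Matrix.toLin' (toQ (σ g))`, `b := Matrix.toBilin' (toQ B)`, `L :=` vectors with integer entries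
(`{x | ∀ i, IsZ (x i)}`, spanned by the standard basis).  `Dual b L x ↔ ∀ i, IsZ ((toQ B *ᵥ x) i)`.
Positivity on rational vectors: clear denominators.  `n23`, `sqf` are `l23`, `sq` applied to the integer vectors
`23 • x`, `q² • x`.  `triv`: let `x` be dual, `y = ρ τ x - x` (dual too), `n > 0` minimal with `n • y ∈ L`
(`det B • x ∈ L`, or any common denominator).  If a prime `q ∣ n`: write a common denominator of `x` as `q^a m'`,
`q ∤ m'`; `z = m' • x` is dual with `q^a • z ∈ L`, so `q • z ∈ L` by iterating `sqf`, and `loc` for the integer vector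
`q • z` gives `ρ τ z - z = m' • y ∈ L`; so `n ∣ m'`, contradiction. -/
theorem Good.st0 {σ : G →* MZ} {B : MZ} {τ : G} (h : Good σ B τ) :
    ∃ (ρ : G →* (V →ₗ[ℚ] V)) (b : LinearMap.BilinForm ℚ V) (L : Submodule ℤ V), St0 ρ b τ L := by
  have hm := h.mod
  let ρ : G →* (V →ₗ[ℚ] V) :=
    { toFun := fun g => Matrix.toLin' (toQ (σ g))
      map_one' := by rw [map_one, MinB.toQ_one, Matrix.toLin'_one]; rfl
      map_mul' := fun a b => by rw [map_mul, MinB.toQ_mul, Matrix.toLin'_mul]; rfl }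
  have hρ : ∀ g x, ρ g x = toQ (σ g) *ᵥ x := fun g x => Matrix.toLin'_apply _ _
  let b : LinearMap.BilinForm ℚ V := Matrix.toBilin' (toQ B)
  have hb : ∀ x y, b x y = x ⬝ᵥ toQ B *ᵥ y := fun x y => Matrix.toBilin'_apply' _ _ _
  have hs : ∀ x y, b x y = b y x := fun x y => by
    rw [hb, hb, dotProduct_mulVec, ← mulVec_transpose, (hm.symm.map _).eq, dotProduct_comm]
  have hbz : ∀ x y, b (MinB.cv x) (MinB.cv y) = (x ⬝ᵥ B *ᵥ y : ℤ) := fun x y => by
    rw [hb, MinB.mv, MinB.dot]
  have hd : ∀ x, Dual b MinB.L x ↔ ∃ w, toQ B *ᵥ x = MinB.cv w := fun x => by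
    constructor
    · intro hx
      have : ∀ i, ∃ n : ℤ, (toQ B *ᵥ x) i = n := fun i => by
        obtain ⟨n, hn⟩ := hx _ ⟨Pi.single i 1, rfl⟩
        refine ⟨n, ?_⟩
        rw [← hn, hs, hb, MinB.cv_single, single_dotProduct, one_mul]
      choose w hw using this
      exact ⟨w, funext hw⟩
    · rintro ⟨w, hw⟩ _ ⟨y, rfl⟩
      exact ⟨_, by rw [hs, hb, hw, MinB.dot]⟩
  have hds : ∀ (n : ℤ) x, Dual b MinB.L x → Dual b MinB.L ((n : ℚ) • x) := fun n x hx y hy =>
    ((IsZ.int n).mul (hx y hy)).of_eq (by rw [map_smul, LinearMap.smul_apply, smul_eq_mul])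
  have hdiv : ∀ (n : ℤ) x z, Dual b MinB.L x → MinB.cv z = (n : ℚ) • x → ∀ i, n ∣ (B *ᵥ z) i := by
    intro n x z hx hz i
    obtain ⟨w, hw⟩ := (hd x).1 hx
    have := MinB.mv B z
    rw [hz, mulVec_smul, hw] at this
    have := congrFun this i
    simp only [Pi.smul_apply, MinB.cv_apply, smul_eq_mul] at this
    exact ⟨w i, by exact_mod_cast this.symm⟩
  have sqf : ∀ q : ℕ, q.Prime → ∀ x, Dual b MinB.L x → ((q : ℚ) ^ 2) • x ∈ MinB.L →
      (q : ℚ) • x ∈ MinB.L := by
    rintro q hq x hx ⟨z, hz⟩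
    refine MinB.canc (n := q) (by exact_mod_cast hq.ne_zero)
      (h.sq q hq z (hdiv (q ^ 2) x z hx (by rw [hz]; push_cast; rfl))) ?_
    rw [hz, smul_smul, pow_two]
    rfl
  have triv : ∀ n : ℕ, n ≠ 0 → ∀ x, Dual b MinB.L x → (n : ℚ) • x ∈ MinB.L →
      ρ τ x - x ∈ MinB.L := by
    intro n
    induction n using Nat.recOnPosPrimePosCoprime with
    | zero => exact fun h0 => absurd rfl h0
    | one =>
      rintro - x - ⟨z, hz⟩
      rw [Nat.cast_one, one_smul] at hz
      rw [← hz, hρ, MinB.mv, ← map_sub]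
      exact ⟨_, rfl⟩
    | prime_pow q k hq hk =>
      intro _ x hx h1
      have : ∀ k : ℕ, ((q : ℚ) ^ (k + 1)) • x ∈ MinB.L → (q : ℚ) • x ∈ MinB.L := by
        intro k
        induction k with
        | zero => exact fun h2 => by rwa [zero_add, pow_one] at h2
        | succ k ih =>
          intro h2
          refine ih ?_
          have := sqf q hq _ (hds (q ^ k) x hx) (by
            rw [smul_smul]
            convert h2 using 2
            push_cast
            ring)
          rw [smul_smul] at this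
          convert this using 2
          push_cast
          ring
      obtain ⟨k, rfl⟩ := Nat.exists_eq_add_one_of_ne_zero hk.ne'
      obtain ⟨z, hz⟩ := this k (by exact_mod_cast h1)
      refine MinB.canc (n := q) (by exact_mod_cast hq.ne_zero)
        (h.loc q hq z (hdiv q x z hx (by rw [hz]; push_cast; rfl))) ?_
      rw [map_sub, ← MinB.mv, hz, mulVec_smul, hρ, smul_sub]
      rfl
    | coprime a c ha hc hac iha ihc =>
      intro _ x hx h1
      have h2 := ihc (by omega) _ (hds a x hx) (by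
        rw [smul_smul]
        convert h1 using 2
        push_cast
        ring)
      have h3 := iha (by omega) _ (hds c x hx) (by
        rw [smul_smul]
        convert h1 using 2
        push_cast
        ring)
      obtain ⟨u, v, e⟩ := Nat.isCoprime_iff_coprime.2 hac
      have e' : (u : ℚ) * (a : ℤ) + v * (c : ℤ) = 1 := by exact_mod_cast e
      have := MinB.L.add_mem (MinB.L.smul_mem u h2) (MinB.L.smul_mem v h3)
      rwa [map_smul, map_smul, ← smul_sub, ← smul_sub, ← Int.cast_smul_eq_zsmul ℚ,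
        ← Int.cast_smul_eq_zsmul ℚ, smul_smul, smul_smul, ← add_smul, e', one_smul] at this
  refine ⟨ρ, b, MinB.L, ⟨fun g g' e => hm.inj ?_, fun W hW => hm.irr W fun g w hw => ?_, hs,
    fun x hx => ?_, fun g x y => ?_⟩, MinB.lat, ?_, ?_, h.ord, ?_, fun x hx => ?_, ?_, sqf⟩
  · exact Matrix.map_injective Int.cast_injective (Matrix.toLin'.injective e)
  · rw [← hρ]
    exact hW g w hw
  · obtain ⟨n, hn, z, hz⟩ := MinB.exists_mul x
    have hn' : (n : ℚ) ≠ 0 := by exact_mod_cast hn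
    have h1 := hm.pos z fun e => hx (by
      rw [e, map_zero] at hz
      exact (smul_eq_zero.1 hz.symm).resolve_left hn')
    have h2 := hbz z z
    rw [hz, map_smul, map_smul, LinearMap.smul_apply, smul_eq_mul, smul_eq_mul, ← mul_assoc] at h2
    have h3 : (0 : ℚ) < n * n * b x x := by rw [h2]; exact_mod_cast h1
    exact (mul_pos_iff_of_pos_left (mul_self_pos.2 hn')).1 h3
  · rw [hρ, hρ, hb, hb, mulVec_mulVec, dotProduct_mulVec, vecMul_mulVec, ← dotProduct_mulVec,
      ← Matrix.mul_assoc]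
    conv_rhs => rw [← hm.inv g, MinB.toQ_mul, MinB.toQ_mul]
    rfl
  · rintro g _ ⟨z, rfl⟩
    exact ⟨_, by rw [hρ, MinB.mv]⟩
  · rintro _ ⟨x, rfl⟩ _ ⟨y, rfl⟩
    exact ⟨_, hbz x y⟩
  · obtain ⟨u, hu, h1⟩ := hm.fix_line τ h.ord
    exact ⟨u, hu, fun x => by rw [hρ, h1]⟩
  · obtain ⟨n, hn, h1⟩ := MinB.exists_mul x
    exact triv n hn x hx h1
  · rintro x hx ⟨z, hz⟩
    exact MinB.canc (n := 23) (by norm_num) (h.l23 z (hdiv 23 x z hx (by rw [hz]; rfl)))
      (by rw [hz]; rfl)

end CL.F23
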