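/-
S3355: a root orthogonal to the fixed line gives a frame of type A22.
-/
import Cfsg.Agent.REC.F23.StB

set_option autoImplicit false

namespace CL.F23

open Matrix Module

variable {G : Type*} [Group G] {ρ : G →* (V →ₗ[ℚ] V)} {b : LinearMap.BilinForm ℚ V} {τ : G}
  {L : Submodule ℤ V} {u x1 : V} {m : ℤ}

namespace RTa

/-- endomorphisms preserving `L` -/
def pres (L : Submodule ℤ V) : Subring (Module.End ℚ V) where
  carrier := {f | ∀ x ∈ L, f x ∈ L}
  one_mem' := fun _ h => h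
  zero_mem' := fun _ _ => L.zero_mem
  mul_mem' := fun hf hg x hx => hf _ (hg x hx)
  add_mem' := fun hf hg x hx => L.add_mem (hf x hx) (hg x hx)
  neg_mem' := fun hf x hx => L.neg_mem (hf x hx)

theorem pow23 {R : Type*} [Ring R] {t : R} (h : t ^ 23 = 1) : ∃ (n : ℕ) (g : R), (1 - t) ^ n = 23 • g := by
  obtain ⟨g, hg⟩ := (Commute.one_left (-t)).exists_add_pow_prime_eq (p := 23) (by norm_num)
  rw [← sub_eq_add_neg, (show Odd 23 by decide).neg_pow, h, one_pow, add_neg_cancel, zero_add, mul_assoc, mul_assoc,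
    ← nsmul_eq_mul] at hg
  exact ⟨_, _, hg⟩

theorem step1 (h : St ρ b τ L u x1 m) {r : V} (hr : r ∈ L) (hu : b u r = 0) (h2 : b r r = 2) :
    ∃ r ∈ L, b u r = 0 ∧ b r r = 2 ∧ ∀ i : ℕ, b r ((ρ τ ^ i) r) ≠ 1 := by
  by_contra hn
  push Not at hn
  have hT : ρ τ ∈ pres L := h.inv τ
  have key : ∀ k : ℕ, ∃ x ∈ L, b u (((1 - ρ τ) ^ k) x) = 0 ∧ b (((1 - ρ τ) ^ k) x) (((1 - ρ τ) ^ k) x) = 2 := by
    intro k
    induction k with
    | zero => exact ⟨r, hr, hu, h2⟩
    | succ k ih =>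
      obtain ⟨x, hx, k1, k2⟩ := ih
      obtain ⟨a, ha⟩ := hn _ (pow_mem (sub_mem (one_mem _) hT) k x hx) k1 k2
      have e : (1 - ρ τ) ^ (k + 1) * ∑ i ∈ Finset.range a, ρ τ ^ i = (1 - ρ τ ^ a) * (1 - ρ τ) ^ k := by
        rw [pow_succ, mul_assoc, mul_neg_geom_sum]
        exact (((Commute.one_right _).sub_right (((Commute.one_left _).sub_left (Commute.refl _)).pow_right a)).pow_left
          k).eq
      have e' : ((1 - ρ τ) ^ (k + 1)) ((∑ i ∈ Finset.range a, ρ τ ^ i) x) =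
          ((1 - ρ τ) ^ k) x - (ρ τ ^ a) (((1 - ρ τ) ^ k) x) := congrArg (fun f : Module.End ℚ V => f x) e
      have hm : ∑ i ∈ Finset.range a, ρ τ ^ i ∈ pres L := sum_mem fun i _ => pow_mem hT i
      refine ⟨(∑ i ∈ Finset.range a, ρ τ ^ i) x, hm x hx, ?_⟩
      rw [e']
      generalize ((1 - ρ τ) ^ k) x = y at *
      refine ⟨by rw [map_sub, h.bu_pow, sub_self], ?_⟩
      simp only [map_sub, LinearMap.sub_apply, h.iso_pow, k2, h.ctx.symm ((ρ τ ^ a) y) y, ha]
      norm_num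
  obtain ⟨N, g, hg⟩ := pow23 (t := (⟨_, hT⟩ : pres L)) (Subtype.ext h.pow23)
  obtain ⟨x, hx, -, k⟩ := key N
  have e : ((1 - ρ τ) ^ N : Module.End ℚ V) x = (23 : ℚ) • g.1 x := by
    have := congrArg (pres L).subtype hg
    rw [map_pow, map_sub, map_one, map_nsmul] at this
    rw [show ρ τ = (pres L).subtype ⟨_, hT⟩ from rfl, this, LinearMap.smul_apply, ← Nat.cast_smul_eq_nsmul ℚ]
    rfl
  obtain ⟨n, hn⟩ := h.int _ (g.2 x hx) _ (g.2 x hx)
  rw [e, map_smul, map_smul, LinearMap.smul_apply, hn, smul_eq_mul, smul_eq_mul] at k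
  have : (23 : ℤ) * (23 * n) = 2 := by exact_mod_cast k
  omega

/-- the Gram function of the simple roots -/
def dz (k : ZMod 23) : ℤ := if k = 0 then 2 else if k = 1 ∨ k = -1 then -1 else 0

theorem key : ∀ δ : ZMod 23, ∑ k : ZMod 23, ∑ l : ZMod 23, (k.val : ℤ) * (l.val : ℤ) * dz (l - k + δ) =
    if δ = 0 then 506 else -23 := by decide +kernel

theorem z1 : ∀ i : ZMod 23, i ≠ 0 → i + i ≠ 0 := by decide

theorem z2 : ∀ i : ZMod 23, i ≠ 0 → i ≠ -i := by decide

theorem step2 (h : St ρ b τ L u x1 m) {r : V} (hr : r ∈ L) (hu : b u r = 0) (h2 : b r r = 2) :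
    ∃ s : ZMod 23 → V, (∀ i, s i ∈ L) ∧ (∀ i, b u (s i) = 0) ∧ ∑ i, s i = 0 ∧ ∀ i j, b (s i) (s j) = dz (j - i) := by
  obtain ⟨r, hr, hu, h2, h1⟩ := step1 h hr hu h2
  have r0 : r ≠ 0 := by rintro rfl; simp at h2
  have ad : ∀ i j : ZMod 23, ∀ x, (ρ τ ^ (i + j).val) x = (ρ τ ^ i.val) ((ρ τ ^ j.val) x) := fun i j x => by
    rw [ZMod.val_add, ← pow_eq_pow_mod _ h.pow23, pow_add]; rfl
  obtain ⟨c, hc⟩ : ∃ c : ZMod 23 → ℚ, ∀ i, c i = b r ((ρ τ ^ i.val) r) := ⟨_, fun _ => rfl⟩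
  have g : ∀ i j : ZMod 23, b ((ρ τ ^ i.val) r) ((ρ τ ^ j.val) r) = c (j - i) := fun i j => by
    rw [hc, ← h.iso_pow i.val r, ← ad, add_sub_cancel]
  have sm : ∑ i : ZMod 23, (ρ τ ^ i.val) r = 0 := by
    have := h.sum_pow r
    rw [hu, zero_div, zero_smul, ← Fin.sum_univ_eq_sum_range] at this
    exact this
  have c0 : c 0 = 2 := by rw [hc]; exact h2
  have cn : ∀ i, c (-i) = c i := fun i => by
    have := g i 0
    rw [zero_sub] at this
    rw [← this, hc, h.ctx.symm]; rfl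
  have cs : ∑ i, c i = 0 := by simp only [hc, ← map_sum, sm, map_zero]
  have cv : ∀ i, i ≠ 0 → c i = 0 ∨ c i = -1 := fun i hi => by
    have nd : ∀ i : ZMod 23, i ≠ 0 → ¬ 23 ∣ i.val := fun i hi hd =>
      hi ((ZMod.val_eq_zero i).1 (Nat.eq_zero_of_dvd_of_lt hd i.val_lt))
    have p1 := h.ctx.pos (r - (ρ τ ^ i.val) r) fun e => r0 (h.eq_zero_of_fix (nd i hi) hu (sub_eq_zero.1 e).symm)
    have p2 := h.ctx.pos (r + (ρ τ ^ i.val) r) fun e => r0 (h.eq_zero_of_fix (nd (i + i) (z1 i hi))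
      hu (by rw [ad, ← neg_eq_of_add_eq_zero_right e, map_neg, ← neg_eq_of_add_eq_zero_right e,
        neg_neg]))
    simp only [map_sub, map_add, LinearMap.sub_apply, LinearMap.add_apply, h.iso_pow, h2,
      h.ctx.symm ((ρ τ ^ i.val) r) r, ← hc] at p1 p2
    have p3 := h1 i.val
    obtain ⟨n, hn⟩ := h.int _ hr _ (h.pow_mem i.val hr)
    rw [← hc] at hn p3
    rw [hn] at p1 p2 p3 ⊢
    have q1 : n < 2 := by exact_mod_cast (show (n : ℚ) < 2 by linarith)
    have q2 : -2 < n := by exact_mod_cast (show (-2 : ℚ) < n by linarith)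
    have q3 : n ≠ 1 := by exact_mod_cast p3
    exact_mod_cast (show n = 0 ∨ n = -1 by omega)
  obtain ⟨a, a0, ha⟩ : ∃ a, a ≠ 0 ∧ c a = -1 := by
    by_contra hn
    push Not at hn
    rw [Finset.sum_eq_single 0 (fun i _ hi => (cv i hi).resolve_right (hn i hi)) (by simp), c0] at cs
    norm_num at cs
  have rest : ∀ i, i ≠ 0 → i ≠ a → i ≠ -a → c i = 0 := fun i i0 i1 i2 => by
    have n1 : a ≠ -a := z2 a a0
    rw [← Finset.sum_sdiff (Finset.subset_univ {0, a, -a}), Finset.sum_insert (by simp [a0, a0.symm]),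
      Finset.sum_pair n1, c0, cn, ha] at cs
    refine (Finset.sum_eq_zero_iff_of_nonpos (s := Finset.univ \ {0, a, -a}) fun j hj => ?_).1 (by linarith) i
      (by simp [i0, i1, i2])
    rcases cv j (by rintro rfl; simp at hj) with e | e <;> rw [e] <;> norm_num
  have : Fact (Nat.Prime 23) := ⟨by norm_num⟩
  refine ⟨fun i => (ρ τ ^ (a * i).val) r, fun i => h.pow_mem _ hr, fun i => by rw [h.bu_pow, hu], ?_, fun i j => ?_⟩
  · rw [← sm]
    exact Fintype.sum_equiv (Equiv.mulLeft₀ a a0) _ _ fun _ => rfl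
  · rw [g, ← mul_sub, dz]
    generalize j - i = k
    split_ifs with k0 k1
    · rw [k0, mul_zero, c0]; norm_num
    · rcases k1 with rfl | rfl <;> simp [cn, ha]
    · push Not at k1
      rw [rest _ (mul_ne_zero a0 k0) (fun e => k1.1 (mul_left_cancel₀ a0 (by rw [e, mul_one])))
        fun e => k1.2 (mul_left_cancel₀ a0 (by rw [e, mul_neg_one]))]
      norm_num

end RTa

open RTa

/-- Step 1.  There is a root `r ∈ L ∩ u^⊥` with `b r (T^i r) ≠ 1` for all `i` (`T = ρ τ`).  Otherwise, by induction on `k`,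
there is `x ∈ L ∩ u^⊥` with `(1 - T)^k x` a root (if `b r (T^a r) = 1` then `r - T^a r = (1 - T)(∑ i < a, T^i) r` is a root).
For `k = 23`, `(1 - T)^23 = 1 - T^23 + 23 • (integer polynomial in T)` (`Commute.add_pow_prime_eq`), so a root is `23 • x'`,
`x' ∈ L`, `2 = 529 * b x' x'`.
Step 2.  `c i = b r (T^i r) ∈ {0, -1}` for `0 < i < 23` (integers, `|c i| < 2` as `T^i r ≠ ± r`: norms of `r ∓ T^i r` are
positive; `T^i r = -r` gives `T^(2i) r = r`), `c (23 - i) = c i`, `∑ c i = 0`: exactly one pair `{a, 23 - a}` has `c = -1`.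
Step 3.  `S = T^a`, `ε 0 = -(1/23) ∑ i < 23, i • S^i r`, `ε i = S^i (ε 0)`; `ε i - ε (i+1) = S^i r`, `∑ ε i = 0`.
`γ k = b (ε 0) (ε k)` has `2 γ k - γ (k+1) - γ (k-1) = b r (S^k r)` and `∑ γ k = 0`, so `γ k = δ k - 1/23`
(`γ - δ` has constant first differences on `ZMod 23`, summing to zero).
Spanning: the span of the `ε i` and `u` is everything (22 of the `ε i` and `u` are linearly independent by the Gram matrix),
equivalently a vector orthogonal to `u` and all `ε i` is `0`; then Parseval holds because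
`x - ∑ b x (ε i) • ε i - (b u x / (23 m)) • u` is orthogonal to `u` and all `ε j`. -/
theorem St.frame (h : St ρ b τ L u x1 m) {r : V} (hr : r ∈ L) (hu : b u r = 0) (h2 : b r r = 2) :
    ∃ ε : ZMod 23 → V, (∀ i, b u (ε i) = 0) ∧ (∀ i j, ε i - ε j ∈ L) ∧
      (∀ i j, b (ε i) (ε j) = (if i = j then 1 else 0) - 1 / 23) ∧
      ∀ x, x = ∑ i, b x (ε i) • ε i + (b u x / (23 * m)) • u := by
  obtain ⟨s, s1, s2, s3, s4⟩ := step2 h hr hu h2
  obtain ⟨ε, hε⟩ : ∃ ε : ZMod 23 → V, ∀ i, ε i = ∑ k : ZMod 23, (-(k.val : ℚ) / 23) • s (k + i) := ⟨_, fun _ => rfl⟩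
  have e1 : ∀ i, b u (ε i) = 0 := fun i => by simp [hε, s2]
  have e2 : ∀ i j, b (ε i) (ε j) = (if i = j then 1 else 0) - 1 / 23 := fun i j => by
    have k := congrArg (Int.cast : ℤ → ℚ) (key (j - i))
    push_cast at k
    have : b (ε i) (ε j) = (∑ k : ZMod 23, ∑ l : ZMod 23, (k.val : ℚ) * (l.val : ℚ) * dz (l - k + (j - i))) / 529 := by
      rw [hε, hε, map_sum b, LinearMap.sum_apply, Finset.sum_div]
      refine Finset.sum_congr rfl fun k _ => ?_
      rw [map_sum, Finset.sum_div]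
      refine Finset.sum_congr rfl fun l _ => ?_
      rw [map_smul, map_smul, LinearMap.smul_apply, s4, show l + j - (k + i) = l - k + (j - i) by ring,
        smul_eq_mul, smul_eq_mul]
      ring
    rw [this, k]
    by_cases e : i = j
    · simp [e]; norm_num
    · rw [if_neg e, if_neg (sub_ne_zero.2 (Ne.symm e))]; norm_num
  have e3 : ∑ i, ε i = 0 := by
    simp only [hε]
    rw [Finset.sum_comm]
    refine Finset.sum_eq_zero fun k _ => ?_
    rw [← Finset.smul_sum, Fintype.sum_equiv (Equiv.addLeft k) (fun i => s (k + i)) s fun _ => rfl, s3, smul_zero]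
  have m0 := h.m_ne
  refine ⟨ε, e1, fun i j => ?_, e2, fun x => ?_⟩
  · have r : ∀ i, ε i = ∑ k : ZMod 23, (-((k - i).val : ℚ) / 23) • s k := fun i => by
      rw [hε]; exact Fintype.sum_equiv (Equiv.addRight i) _ _ fun k => by simp
    have d : ∀ k : ZMod 23, ∃ n : ℤ, ((k - j).val : ℤ) - (k - i).val - (i - j).val = 23 * n := fun k =>
      (ZMod.intCast_zmod_eq_zero_iff_dvd _ 23).1 (by push_cast; simp)
    choose n hn using d
    have : ε i - ε j = ∑ k, n k • s k + (((i - j).val : ℚ) / 23) • ∑ k, s k := by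
      rw [r, r, Finset.smul_sum, ← Finset.sum_sub_distrib, ← Finset.sum_add_distrib]
      refine Finset.sum_congr rfl fun k _ => ?_
      rw [← Int.cast_smul_eq_zsmul ℚ, ← sub_smul, ← add_smul]
      congr 1
      have := congrArg (Int.cast : ℤ → ℚ) (hn k)
      push_cast at this
      linarith
    rw [this, s3, smul_zero, add_zero]
    exact sum_mem fun k _ => L.smul_mem _ (s1 k)
  · have li : LinearIndependent ℚ fun i : ZMod 23 => if i = 0 then u else ε i := by
      refine Fintype.linearIndependent_iff.2 fun g hg => ?_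
      have g0 : g 0 = 0 := by
        have := congrArg (b u) hg
        rw [map_sum, Finset.sum_eq_single 0 (fun i _ hi => by simp [hi, e1]) (by simp)] at this
        simpa [h.uu, m0] using this
      have hg' : ∑ i, g i • ε i = 0 := by
        rw [← hg]
        exact Finset.sum_congr rfl fun i _ => by split_ifs with e <;> simp [e, g0]
      have k : ∀ j, g j = (∑ i, g i) / 23 := fun j => by
        have := congrArg (b (ε j)) hg'
        simp only [map_sum, map_smul, e2, smul_eq_mul, mul_sub, Finset.sum_sub_distrib, mul_ite, mul_one, mul_zero,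
          Finset.sum_ite_eq, Finset.mem_univ, if_true, ← Finset.sum_mul, map_zero] at this
        linarith
      exact fun j => by rw [k j, ← k 0, g0]
    have sp := li.span_eq_top_of_card_eq_finrank' (by simp)
    rw [← sub_eq_zero]
    by_contra hn
    refine (h.ctx.pos _ hn).ne' ?_
    generalize hw : x - (∑ i, b x (ε i) • ε i + (b u x / (23 * m)) • u) = w
    have : ⊤ ≤ LinearMap.ker (b w) := sp ▸ Submodule.span_le.2 (by
      rintro _ ⟨j, rfl⟩
      rw [SetLike.mem_coe, LinearMap.mem_ker, h.ctx.symm, ← hw]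
      dsimp only
      split_ifs
      · simp only [map_sub, map_add, map_sum, map_smul, e1, h.uu, smul_eq_mul, mul_zero, Finset.sum_const_zero]
        field_simp
        ring
      · have k : ∑ i, b x (ε i) = 0 := by rw [← map_sum, e3, map_zero]
        simp only [map_sub, map_add, map_sum, map_smul, e2, smul_eq_mul, mul_sub, Finset.sum_sub_distrib, mul_ite,
          mul_one, mul_zero, Finset.sum_ite_eq, Finset.mem_univ, if_true, ← Finset.sum_mul, k,
          h.ctx.symm (ε j) u, e1, h.ctx.symm (ε j) x]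
        ring)
    exact this Submodule.mem_top

end CL.F23
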