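/-
S3355: the case of a root orthogonal to the fixed line.
-/
import Cfsg.Agent.REC.F23.RTa
import Cfsg.Agent.REC.F23.LN

set_option autoImplicit false

namespace CL.F23

open Matrix Module

variable {G : Type*} [Group G] {ρ : G →* (V →ₗ[ℚ] V)} {b : LinearMap.BilinForm ℚ V} {τ : G}
  {L : Submodule ℤ V} {u x1 : V} {m : ℤ}

namespace RT

theorem abs_le (a : ZMod 23 → ℤ) : |∑ i, a i| ≤ ∑ i, a i * a i :=
  (Finset.abs_sum_le_sum_abs _ _).trans (Finset.sum_le_sum fun i _ => by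
    rw [← abs_mul_abs_self]
    nlinarith [abs_nonneg (a i), Int.le_self_sq |a i|])

theorem single {a : ZMod 23 → ℤ} (h : ∑ i, a i * a i ≤ 1) : ∃ i, a = Pi.single i (∑ l, a l) := by
  by_cases e : ∀ i, a i = 0
  · exact ⟨0, funext fun i => by simp [e]⟩
  obtain ⟨i, hi⟩ := not_forall.1 e
  rw [← Finset.add_sum_erase _ _ (Finset.mem_univ i)] at h
  have h1 : 0 < a i * a i := mul_self_pos.2 hi
  have h2 := (Finset.sum_eq_zero_iff_of_nonneg fun l _ => mul_self_nonneg (a l)).1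
    (le_antisymm (by omega) (Finset.sum_nonneg fun l _ => mul_self_nonneg (a l)) :
      ∑ l ∈ Finset.univ.erase i, a l * a l = 0)
  have h3 : ∀ l, l ≠ i → a l = 0 := fun l hl => mul_self_eq_zero.1 (h2 l (by simp [hl]))
  refine ⟨i, funext fun l => ?_⟩
  rw [Finset.sum_eq_single i (fun l _ => h3 l) (by simp)]
  by_cases e : l = i
  · rw [e, Pi.single_eq_same]
  · rw [Pi.single_eq_of_ne e, h3 l e]

theorem cls {A j k m : ℤ} (e : 23 * A - j * j + k * k * m = 46) (h1 : |j| ≤ A) (h2 : |j| ≤ 11) (h3 : 0 < m)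
    (h4 : Even m) (h5 : ¬ 23 ∣ m) (h6 : ¬ 8 ∣ m) : (j = 0 ∧ k = 0) ∨ ((j = 1 ∨ j = -1) ∧ m = 6 ∧ (k = 2 ∨ k = -2)) ∨
      ((j = 2 ∨ j = -2) ∧ m = 4 ∧ (k = 1 ∨ k = -1)) := by
  obtain ⟨n, rfl⟩ := h4
  rw [_root_.abs_le] at h1 h2
  obtain ⟨h2, h2'⟩ := h2
  have h0 : 0 ≤ k * k * (n + n) := mul_nonneg (mul_self_nonneg k) h3.le
  have hk : k * k * (n + n) ≤ 50 ∧ -2 ≤ j ∧ j ≤ 2 := by
    generalize k * k * (n + n) = D at e h0
    interval_cases j <;> omega
  obtain ⟨hk, j1, j2⟩ := hk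
  have : k * k ≤ 25 := by nlinarith [mul_nonneg (mul_self_nonneg k) (show 0 ≤ n - 1 by omega)]
  obtain ⟨k1, k2⟩ := abs_le_of_sq_le_sq' (a := k) (b := 5) (by linarith) (by norm_num)
  clear h2 h2' h0 this
  interval_cases k <;> interval_cases j <;> omega

/-- a frame -/
structure Fr (b : LinearMap.BilinForm ℚ V) (u : V) (m : ℤ) (ε : ZMod 23 → V) : Prop where
  symm : ∀ x y, b x y = b y x
  bu : ∀ i, b u (ε i) = 0
  gr : ∀ i j, b (ε i) (ε j) = (if i = j then 1 else 0) - 1 / 23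
  ex : ∀ x, x = ∑ i, b x (ε i) • ε i + (b u x / (23 * m)) • u

/-- integral coordinates -/
structure Co (b : LinearMap.BilinForm ℚ V) (ε : ZMod 23 → V) (z : V) (a : ZMod 23 → ℤ) (j : ℤ) : Prop where
  le : |j| ≤ 11
  sum : ∑ i, a i = j
  eq : ∀ i, b z (ε i) = a i - j / 23

variable {ε : ZMod 23 → V} (f : Fr b u m ε)
include f

theorem Fr.sum : ∑ i, ε i = 0 := by
  rw [f.ex (∑ i, ε i)]
  simp [f.gr, f.bu]

theorem Fr.co {z : V} (hz : ∀ i j, IsZ (b z (ε i - ε j))) : ∃ a j, Co b ε z a j := by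
  choose n hn using fun i => hz i 0
  have h0 : ∑ i, b z (ε i) = 0 := by rw [← map_sum, f.sum, map_zero]
  have h1 : ∀ i, b z (ε i) = n i + b z (ε 0) := fun i => by rw [← hn, map_sub, sub_add_cancel]
  rw [Finset.sum_congr rfl fun i _ => h1 i, Finset.sum_add_distrib, ← Int.cast_sum] at h0
  generalize hN : ∑ i, n i = N at h0
  refine ⟨fun i => n i - (N + 11) / 23, N - 23 * ((N + 11) / 23), by rw [_root_.abs_le]; omega, by
    simp [hN], fun i => ?_⟩
  simp only [Finset.sum_const, Finset.card_univ, ZMod.card, nsmul_eq_mul] at h0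
  rw [h1]
  generalize (N + 11) / 23 = q
  push_cast at h0 ⊢
  linear_combination h0 / 23

theorem Fr.bil {z z' : V} {a a' : ZMod 23 → ℤ} {j j' : ℤ} (c : Co b ε z a j) (c' : Co b ε z' a' j') :
    b z z' = (∑ i, a i * a' i : ℤ) - j * j' / 23 + b u z * b u z' / (23 * m) := by
  have h : ∀ i, b z (ε i) * b (ε i) z' = a i * a' i - j' / 23 * a i - j / 23 * a' i + j * j' / 529 := fun i => by
    rw [f.symm (ε i), c.eq, c'.eq]
    ring
  have s : ∑ i, (a i : ℚ) = j := by rw [← c.sum, Int.cast_sum]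
  have s' : ∑ i, (a' i : ℚ) = j' := by rw [← c'.sum, Int.cast_sum]
  nth_rewrite 1 [f.ex z]
  simp only [map_add, map_sum, map_smul, LinearMap.add_apply, LinearMap.sum_apply, LinearMap.smul_apply, smul_eq_mul, h,
    Finset.sum_add_distrib, Finset.sum_sub_distrib, ← Finset.mul_sum, s, s', Finset.sum_const, Finset.card_univ,
    ZMod.card, nsmul_eq_mul]
  push_cast
  ring

theorem Fr.eq {z : V} {i : ZMod 23} {j : ℤ} (c : Co b ε z (Pi.single i j) j) :
    z = (j : ℚ) • ε i + (b u z / (23 * m)) • u := by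
  nth_rewrite 1 [f.ex z]
  simp only [c.eq, sub_smul, Finset.sum_sub_distrib, ← Finset.smul_sum, f.sum, smul_zero, sub_zero]
  rw [Finset.sum_eq_single i (fun l _ hl => by simp [hl]) (by simp), Pi.single_eq_same]

end RT

open RT

/-- Proof.  Take `ε` from `St.frame`.  Let `R` be the set of roots of `L` (`b r r = 2`), and
`S = {z | z ≠ 0 ∧ b z z ≤ 1 ∧ ∀ r ∈ R, IsZ (b z r)}`: invariant under `ρ g` and `-`.  Apply `Ctx.idx`.
Coordinates: if `b z (ε i - ε j) ∈ ℤ` for all `i j` (true for `z ∈ L`, `z ∈ S`, as `ε i - ε j ∈ R ∪ {0}`), the numbers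
`z i = b z (ε i)` have sum 0 and are congruent mod `ℤ`: `z i = a i - j/23`, `∑ a i = j`, wlog `|j| ≤ 11`, and
`b z z = ∑ (a i)² - j²/23 + (b u z)²/(23 m)`, `∑ (a i)² ≥ |j|`, `∑ (a i)² ≡ j mod 2`.
Roots `r'` with `k = b u r' / m ∈ ℤ`: `j = 0` (`k = 0`; `k² m = 46` is impossible as `23 ∤ m`), `|j| = 1` and `k² m = 24`,
or `|j| = 2` and `k² m = 4`; the last two exclude each other (`24 k'² = 4 k²`).  By `Ctx.exists_ne` some root has `k ≠ 0`.
Case `A₂₃`: all `ε i + s u ∈ R` (`s = k/23`); `z0 = (1/k m) • u` (norm `23/24`) is in `S`; an element of `S` is `± z0` or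
`± (ε i + t u)` with `t` determined by `b z (ε i + s u) = 22/23 + 23 m s t ∈ ℤ`, `(23 m s t)² ≤ 24/529`: at most 48.
Case `D₂₃`: all `ε i + ε k + s u ∈ R` (`i ≠ k`); `ε 0 + (s/2) u ∈ S` (for a root `± (ε i + ε k) + s' u`, `s' = ± s`, the signs
agree by integrality against a fixed root); an element of `S` is `± (ε i + (s/2) u)`: at most 46. -/
theorem St.idx_of_root [Finite G] (h : St ρ b τ L u x1 m) {r : V} (hr : r ∈ L) (hu : b u r = 0) (h2 : b r r = 2) :
    Idx G := by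
  obtain ⟨ε, e1, e2, e3, e4⟩ := h.frame hr hu h2
  have f : Fr b u m ε := ⟨h.ctx.symm, e1, e3, e4⟩
  have hm := h.m_ne
  have hm' : (0 : ℚ) < m := by exact_mod_cast h.pos
  have hu0 : u ≠ 0 := fun e => by
    have := h.uu
    rw [e, map_zero] at this
    exact hm (by linarith)
  have root : ∀ x ∈ L, b x x = 2 → ∃ a j, ∃ k : ℤ, Co b ε x a j ∧ b u x = k * m ∧ ((j = 0 ∧ k = 0) ∨
      ((j = 1 ∨ j = -1) ∧ m = 6 ∧ (k = 2 ∨ k = -2)) ∨ ((j = 2 ∨ j = -2) ∧ m = 4 ∧ (k = 1 ∨ k = -1))) := fun x hx e => by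
    obtain ⟨a, j, c⟩ := f.co fun i j => h.int x hx _ (e2 i j)
    obtain ⟨k, hk⟩ := h.dvd x hx
    refine ⟨a, j, k, c, hk, cls (A := ∑ i, a i * a i) ?_ (c.sum ▸ RT.abs_le a) c.le h.pos h.ev h.n23 h.n8⟩
    have := f.bil c c
    rw [e, hk] at this
    generalize ∑ i, a i * a i = A at this
    field_simp at this
    exact_mod_cast (show (23 * A - j * j + k * k * m : ℚ) = 46 by linear_combination -this)
  obtain ⟨g, hg⟩ := h.ctx.exists_ne (x := r) (fun e => by simp [e] at h2) hu0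
  have hr₀ := h.inv g r hr
  have h₀ := (h.ctx.inv g r r).trans h2
  generalize ρ g r = r₀ at hg hr₀ h₀
  obtain ⟨a₀, j₀, k, c₀, hk, h3⟩ := root r₀ hr₀ h₀
  have k0 : k ≠ 0 := fun e => hg (by simp [hk, e])
  have k0' : (k : ℚ) ≠ 0 := by exact_mod_cast k0
  let F : Option (ZMod 23) × Bool → V := fun q => (if q.2 then (1 : ℚ) else -1) •
    q.1.elim ((1 / (k * m) : ℚ) • u) fun i => ε i + (j₀ / (23 * m * k) : ℚ) • u
  have sub : {z | z ≠ 0 ∧ b z z ≤ 1 ∧ ∀ x ∈ L, b x x = 2 → IsZ (b z x)} ⊆ Set.range F := by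
    rintro z ⟨z0, z1, z2⟩
    obtain ⟨a, j, c⟩ := f.co (z := z) fun i j => by
      by_cases e : i = j
      · simpa [e] using IsZ.zero
      · exact z2 _ (e2 i j) (by simp [e3, e, Ne.symm e]; norm_num)
    obtain ⟨n, hn⟩ := z2 r₀ hr₀ h₀
    rw [f.bil c c₀, hk] at hn
    rw [f.bil c c] at z1
    have a1 := c.sum ▸ RT.abs_le a
    have a2 := c.le
    have a3 := single (a := a)
    rw [c.sum] at a3
    generalize ∑ i, a i * a₀ i = B at hn
    generalize ∑ i, a i * a i = A at z1 a1 a3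
    have w : b u z = (23 * (n - B) + j * j₀ : ℤ) / k := by
      field_simp at hn ⊢
      push_cast
      linear_combination hn
    generalize n - B = N at w
    have z3 : (23 * A - j * j) * (k * k * m) + (23 * N + j * j₀) * (23 * N + j * j₀) ≤ 23 * (k * k * m) := by
      rw [w] at z1
      generalize 23 * N + j * j₀ = W at z1
      have : (0 : ℚ) < k * k * m := mul_pos (mul_self_pos.2 k0') hm'
      have e : ((23 * A - j * j) * (k * k * m) + W * W : ℚ) =
          23 * (k * k * m) * (A - j * j / 23 + W / k * (W / k) / (23 * m)) := by field_simp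
      exact_mod_cast (show ((23 * A - j * j) * (k * k * m) + W * W : ℚ) ≤ 23 * (k * k * m) by rw [e]; nlinarith)
    have b1 : 0 < k * k * m ∧ k * k * m ≤ 24 ∧ -2 ≤ j₀ ∧ j₀ ≤ 2 := by
      rcases h3 with ⟨-, e⟩ | ⟨rfl | rfl, rfl, rfl | rfl⟩ | ⟨rfl | rfl, rfl, rfl | rfl⟩ <;> omega
    generalize k * k * m = D at z3 b1
    obtain ⟨b1, b2, b3, b4⟩ := b1
    have z4 : 23 * A - j * j ≤ 23 := by nlinarith [mul_self_nonneg (23 * N + j * j₀)]
    rw [_root_.abs_le] at a1 a2
    have z5 : A ≤ 1 ∧ -1 ≤ j ∧ j ≤ 1 := by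
      obtain ⟨a2, a2'⟩ := a2
      interval_cases j <;> omega
    obtain ⟨i, rfl⟩ := a3 z5.1
    have ez := f.eq c
    rw [w] at ez
    obtain ⟨-, z6, z7⟩ := z5
    interval_cases j
    · obtain rfl : N = 0 := by nlinarith
      refine ⟨(some i, false), ?_⟩
      rw [ez]
      simp only [F, Option.elim]
      push_cast
      match_scalars <;> field_simp <;> ring
    · have : N = 1 ∨ N = -1 ∨ N = 0 := by
        have : -2 < N := by nlinarith
        have : N < 2 := by nlinarith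
        omega
      rcases this with rfl | rfl | rfl
      · refine ⟨(none, true), ?_⟩
        rw [ez]
        simp only [F, Option.elim]
        push_cast
        match_scalars <;> field_simp <;> ring
      · refine ⟨(none, false), ?_⟩
        rw [ez]
        simp only [F, Option.elim]
        push_cast
        match_scalars <;> field_simp <;> ring
      · exact (z0 (by simp [ez])).elim
    · obtain rfl : N = 0 := by nlinarith
      refine ⟨(some i, true), ?_⟩
      rw [ez]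
      simp only [F, Option.elim]
      push_cast
      match_scalars <;> field_simp <;> ring
  refine h.ctx.idx _ ((Set.finite_range F).subset sub) ((Set.ncard_le_ncard sub (Set.finite_range F)).trans ?_) ?_
    (fun e => e.1 rfl) (fun z hz => ⟨neg_ne_zero.2 hz.1, by simpa using hz.2.1, fun x hx e => by
      simpa using (hz.2.2 x hx e).neg⟩) fun g z hz => ⟨fun e => ?_, by rw [h.ctx.inv]; exact hz.2.1, fun x hx e => ?_⟩
  · rw [← Set.image_univ]
    exact (Set.ncard_image_le).trans (by simp [Set.ncard_univ])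
  · rcases h3 with ⟨-, e⟩ | ⟨-, m6, hk2⟩ | ⟨hj, m4, hk1⟩
    · exact (k0 e).elim
    · refine ⟨(1 / (k * m) : ℚ) • u, smul_ne_zero (by positivity) hu0, ?_, fun x hx e => ?_⟩
      · simp only [map_smul, LinearMap.smul_apply, smul_eq_mul, h.uu]
        rcases hk2 with rfl | rfl <;> subst m6 <;> norm_num
      · obtain ⟨a, j, k', -, e', h4⟩ := root x hx e
        simp only [map_smul, LinearMap.smul_apply, smul_eq_mul, e']
        refine ⟨k' / k, ?_⟩
        subst m6
        rcases hk2 with rfl | rfl <;> rcases h4 with ⟨-, rfl⟩ | ⟨-, -, rfl | rfl⟩ | ⟨-, e, -⟩ <;>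
          first | omega | norm_num
    · have n1 : b (ε 0 + (j₀ / (23 * m * k) : ℚ) • u) (ε 0 + (j₀ / (23 * m * k) : ℚ) • u) = 1 := by
        simp only [map_add, map_smul, LinearMap.add_apply, LinearMap.smul_apply, smul_eq_mul, h.uu, e1, e3,
          f.symm (ε 0) u]
        subst m4
        rcases hk1 with rfl | rfl <;> rcases hj with rfl | rfl <;> norm_num
      refine ⟨ε 0 + (j₀ / (23 * m * k) : ℚ) • u, fun e => by simp [e] at n1, n1.le, fun x hx e => ?_⟩
      obtain ⟨a, j, k', c, e', h4⟩ := root x hx e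
      obtain ⟨n, hn⟩ := h.int x hx r₀ hr₀
      rw [f.bil c c₀, hk, e'] at hn
      generalize ∑ i, a i * a₀ i = B at hn
      have hn' : k' * k * m - j * j₀ = 23 * (n - B) := by
        field_simp at hn
        exact_mod_cast (show (k' * k * m - j * j₀ : ℚ) = 23 * (n - B) by linear_combination hn)
      simp only [map_add, map_smul, LinearMap.add_apply, LinearMap.smul_apply, smul_eq_mul, e', f.symm (ε 0) x, c.eq]
      refine ⟨a 0, ?_⟩
      subst m4
      rcases hk1 with rfl | rfl <;> rcases hj with rfl | rfl <;>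
        rcases h4 with ⟨rfl, rfl⟩ | ⟨-, e, -⟩ | ⟨rfl | rfl, -, rfl | rfl⟩ <;> first | omega | norm_num
  · have := h.ctx.pos z hz.1
    rw [← h.ctx.inv g, e, map_zero] at this
    exact this.ne rfl
  · have e' : ρ g (ρ g⁻¹ x) = x := by rw [← Module.End.mul_apply, ← map_mul, mul_inv_cancel, map_one, Module.End.one_apply]
    rw [← e', h.ctx.inv]
    exact hz.2.2 _ (h.inv _ x hx) (by rw [h.ctx.inv, e])

end CL.F23
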