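/-
S3355: reaching the main setting.
-/
import Cfsg.Agent.REC.F23.Gram

set_option autoImplicit false

namespace CL.F23

open Matrix Module

variable {G : Type*} [Group G] {ρ : G →* (V →ₗ[ℚ] V)} {b : LinearMap.BilinForm ℚ V} {τ : G}
  {L : Submodule ℤ V} {u x1 : V} {m : ℤ}

namespace StA

theorem isZ_sum {ι : Type*} (s : Finset ι) (f : ι → ℚ) (h : ∀ i ∈ s, IsZ (f i)) : IsZ (∑ i ∈ s, f i) :=
  Finset.sum_induction f IsZ (fun _ _ => IsZ.add) IsZ.zero h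

/-- the norm map -/
noncomputable def N (ρ : G →* (V →ₗ[ℚ] V)) (τ : G) (x : V) : V := ∑ i ∈ Finset.range 23, (ρ τ ^ i) x

theorem pow23 (h : St0 ρ b τ L) : ρ τ ^ 23 = 1 := by
  have := pow_orderOf_eq_one τ
  rw [h.ord] at this
  rw [← map_pow, this, map_one]

theorem iso_pow (h : St0 ρ b τ L) (i : ℕ) (x y : V) : b ((ρ τ ^ i) x) ((ρ τ ^ i) y) = b x y := by
  rw [← map_pow]; exact h.ctx.inv _ _ _

theorem pow_mem (h : St0 ρ b τ L) (i : ℕ) {x : V} (hx : x ∈ L) : (ρ τ ^ i) x ∈ L := by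
  rw [← map_pow]; exact h.inv _ _ hx

theorem N_mem (h : St0 ρ b τ L) {x : V} (hx : x ∈ L) : N ρ τ x ∈ L :=
  L.sum_mem fun i _ => pow_mem h i hx

theorem T_N (h : St0 ρ b τ L) (x : V) : ρ τ (N ρ τ x) = N ρ τ x := by
  have e : ∀ i : ℕ, ρ τ ((ρ τ ^ i) x) = (ρ τ ^ (i + 1)) x := fun i => by
    rw [pow_succ', Module.End.mul_apply]
  have h1 := Finset.sum_range_succ (fun i => (ρ τ ^ i) x) 23
  have h2 := Finset.sum_range_succ' (fun i => (ρ τ ^ i) x) 23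
  rw [pow23 h] at h1
  rw [h1, pow_zero] at h2
  rw [N, map_sum]
  simp only [e]
  exact (add_right_cancel h2).symm

theorem pow_fix (hu : ρ τ u = u) (i : ℕ) : (ρ τ ^ i) u = u := by
  induction i with
  | zero => rfl
  | succ i ih => rw [pow_succ, Module.End.mul_apply, hu, ih]

theorem bu_N (h : St0 ρ b τ L) (hu : ρ τ u = u) (x : V) : b u (N ρ τ x) = 23 * b u x := by
  have e : ∀ i : ℕ, b u ((ρ τ ^ i) x) = b u x := fun i => by
    rw [← iso_pow h i u x, pow_fix hu]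
  rw [N, map_sum]
  simp [e]

theorem smul_int_mem {x : V} (hx : x ∈ L) (k : ℤ) : (k : ℚ) • x ∈ L := by
  rw [Int.cast_smul_eq_zsmul]; exact L.smul_mem k hx

/-- the intermediate setting -/
structure S1 (ρ : G →* (V →ₗ[ℚ] V)) (b : LinearMap.BilinForm ℚ V) (τ : G) (L : Submodule ℤ V)
    (u x1 : V) (d : ℤ) : Prop where
  st : St0 ρ b τ L
  fix : ∀ x, ρ τ x = x ↔ ∃ c : ℚ, x = c • u
  u_mem : u ∈ L
  x1_mem : x1 ∈ L
  uu : b u u = 23 * d
  ux1 : b u x1 = d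
  dvd : ∀ x ∈ L, ∃ k : ℤ, b u x = k * d
  pos : 0 < d

theorem exists_s1 (h : St0 ρ b τ L) : ∃ (u x1 : V) (d : ℤ), S1 ρ b τ L u x1 d := by
  obtain ⟨u', hu', hfix⟩ := h.fix
  obtain ⟨n, hn, hnu⟩ := Gram.exists_mul h.lat u'
  have hn' : (n : ℚ) ≠ 0 := Int.cast_ne_zero.2 hn
  obtain ⟨u0, hu0⟩ : ∃ u0 : V, u0 = (n : ℚ) • u' := ⟨_, rfl⟩
  have hmem : u0 ∈ L := by rw [hu0, Int.cast_smul_eq_zsmul]; exact hnu
  have hne : u0 ≠ 0 := by rw [hu0]; exact smul_ne_zero hn' hu'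
  have hfix0 : ∀ x, ρ τ x = x ↔ ∃ c : ℚ, x = c • u0 := fun x => by
    rw [hfix]
    refine ⟨fun ⟨c, hc⟩ => ⟨c / n, ?_⟩, fun ⟨c, hc⟩ => ⟨c * n, by rw [hc, hu0, smul_smul]⟩⟩
    rw [hc, hu0, smul_smul, div_mul_cancel₀ _ hn']
  have ht0 : ρ τ u0 = u0 := (hfix0 _).2 ⟨1, (one_smul _ _).symm⟩
  let I : AddSubgroup ℤ :=
    { carrier := {k | ∃ x ∈ L, b u0 x = k}
      zero_mem' := ⟨0, L.zero_mem, by simp⟩
      add_mem' := by
        rintro k l ⟨x, hx, e⟩ ⟨y, hy, e'⟩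
        exact ⟨x + y, L.add_mem hx hy, by rw [map_add, e, e', Int.cast_add]⟩
      neg_mem' := by
        rintro k ⟨x, hx, e⟩
        exact ⟨-x, L.neg_mem hx, by rw [map_neg, e, Int.cast_neg]⟩ }
  obtain ⟨e, he⟩ := Int.subgroup_cyclic I
  have hall : ∀ x ∈ L, ∃ k : ℤ, b u0 x = k * e := fun x hx => by
    obtain ⟨a, ha⟩ := h.int _ hmem _ hx
    have : a ∈ I := ⟨x, hx, ha⟩
    rw [he, AddSubgroup.mem_closure_singleton] at this
    obtain ⟨k, hk⟩ := this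
    exact ⟨k, by rw [ha, ← hk, smul_eq_mul, Int.cast_mul]⟩
  obtain ⟨x1, hx1, e1⟩ : e ∈ I := by rw [he]; exact AddSubgroup.mem_closure_singleton_self e
  have hp := h.ctx.pos _ hne
  have he0 : (e : ℚ) ≠ 0 := by
    obtain ⟨k, hk⟩ := hall _ hmem
    intro h0
    rw [h0, mul_zero] at hk
    exact hp.ne' hk
  obtain ⟨c, hc⟩ := (hfix0 _).1 (T_N h x1)
  have hce : c * b u0 u0 = 23 * e := by
    rw [← e1, ← bu_N h ht0, hc, map_smul, smul_eq_mul]
  have hc0 : c ≠ 0 := by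
    rintro rfl
    rw [zero_mul] at hce
    exact he0 (by linarith)
  obtain ⟨d, hd⟩ := h.int _ (N_mem h hx1) _ hx1
  have hd' : (d : ℚ) = c * e := by rw [← hd, hc, LinearMap.BilinForm.smul_left, e1]
  refine ⟨N ρ τ x1, x1, d, h, fun x => ?_, N_mem h hx1, hx1, ?_, hd, fun x hx => ?_, ?_⟩
  · rw [hfix0, hc]
    refine ⟨fun ⟨a, ha⟩ => ⟨a / c, ?_⟩, fun ⟨a, ha⟩ => ⟨a * c, by rw [ha, smul_smul]⟩⟩
    rw [ha, smul_smul, div_mul_cancel₀ _ hc0]
  · rw [bu_N h (T_N h x1), hd]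
  · obtain ⟨k, hk⟩ := hall x hx
    exact ⟨k, by rw [hc, LinearMap.BilinForm.smul_left, hk, hd']; ring⟩
  · have : (0 : ℚ) < d := by
      have h1 : 0 < c * c * b u0 u0 := mul_pos (mul_self_pos.2 hc0) hp
      rw [mul_assoc, hce] at h1
      rw [hd']
      linarith
    exact_mod_cast this

variable {d : ℤ}

theorem S1.tu (h : S1 ρ b τ L u x1 d) : ρ τ u = u := (h.fix _).2 ⟨1, (one_smul _ _).symm⟩

theorem S1.d_ne (h : S1 ρ b τ L u x1 d) : (d : ℚ) ≠ 0 := Int.cast_ne_zero.2 h.pos.ne'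

theorem S1.N_eq (h : S1 ρ b τ L u x1 d) {x : V} {k : ℚ} (hk : b u x = k * d) : N ρ τ x = k • u := by
  obtain ⟨c, hc⟩ := (h.fix _).1 (T_N h.st x)
  have h1 := bu_N h.st h.tu x
  rw [hc, map_smul, smul_eq_mul, h.uu, hk] at h1
  have : c = k := by
    apply mul_right_cancel₀ h.d_ne
    linarith
  rw [hc, this]

theorem S1.p2 (h : S1 ρ b τ L u x1 d) (w : V) (hw : b u w = 0) (hd : Dual b L w) : w ∈ L := by
  have h1 : ∀ i : ℕ, (ρ τ ^ i) w - w ∈ L := fun i => by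
    induction i with
    | zero => simp
    | succ i ih =>
      have := L.add_mem (h.st.inv τ _ ih) (h.st.triv w hd)
      rwa [map_sub, sub_add_sub_cancel, ← Module.End.mul_apply, ← pow_succ'] at this
  have h2 : N ρ τ w = 0 := by
    rw [h.N_eq (k := 0) (by rw [hw, zero_mul]), zero_smul]
  have h3 : ∑ i ∈ Finset.range 23, ((ρ τ ^ i) w - w) ∈ L := L.sum_mem fun i _ => h1 i
  rw [Finset.sum_sub_distrib, ← N, h2, Finset.sum_const, Finset.card_range, zero_sub] at h3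
  refine h.st.n23 w hd ?_
  have := L.neg_mem h3
  rwa [neg_neg, ← Nat.cast_smul_eq_nsmul ℚ] at this

theorem S1.par (h : S1 ρ b τ L u x1 d) {x : V} (hx : x ∈ L) {k : ℚ} (hk : b u x = k * d) :
    IsZ ((k ^ 2 * d - b x x) / 2) := by
  obtain ⟨f, hf⟩ : ∃ f : ℕ → ℚ, ∀ i, f i = b x ((ρ τ ^ i) x) := ⟨_, fun _ => rfl⟩
  have hs : ∀ i j : ℕ, i + j = 23 → f j = f i := fun i j e => by
    rw [hf, hf, ← iso_pow h.st i x, ← Module.End.mul_apply, ← pow_add, e, pow23 h.st, h.st.ctx.symm]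
    rfl
  have h1 : ∑ i ∈ Finset.range 23, f i = k ^ 2 * d := by
    simp only [hf]
    rw [← map_sum, ← N, h.N_eq hk, map_smul, smul_eq_mul, h.st.ctx.symm, hk]
    ring
  have h0 : f 0 = b x x := by rw [hf]; rfl
  have h2 : IsZ (∑ i ∈ Finset.range 11, f (i + 1)) :=
    isZ_sum _ _ fun i _ => by rw [hf]; exact h.st.int _ hx _ (pow_mem h.st _ hx)
  refine h2.of_eq ?_
  rw [← h1, ← h0]
  simp only [Finset.sum_range_succ, Finset.sum_range_zero, Nat.reduceAdd]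
  rw [hs 1 22 rfl, hs 2 21 rfl, hs 3 20 rfl, hs 4 19 rfl, hs 5 18 rfl, hs 6 17 rfl, hs 7 16 rfl,
    hs 8 15 rfl, hs 9 14 rfl, hs 10 13 rfl, hs 11 12 rfl]
  ring

theorem S1.even0 (h : S1 ρ b τ L u x1 d) {x : V} (hx : x ∈ L) (hk : b u x = 0) : IsZ (b x x / 2) :=
  (h.par hx (k := 0) (by rw [hk, zero_mul])).neg.of_eq (by ring)

theorem S1.dual_div (h : S1 ρ b τ L u x1 d) {q : ℤ} (hq : q ≠ 0) (hd : q ∣ d) :
    Dual b L ((q : ℚ)⁻¹ • u) := fun y hy => by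
  obtain ⟨k, hk⟩ := h.dvd y hy
  obtain ⟨a, ha⟩ := hd
  have : (q : ℚ) ≠ 0 := Int.cast_ne_zero.2 hq
  refine ⟨k * a, ?_⟩
  rw [LinearMap.BilinForm.smul_left, hk, ha]
  push_cast
  field_simp

theorem S1.n23 (h : S1 ρ b τ L u x1 d) : ¬ 23 ∣ d := by
  intro hd
  have h1 : ((23 : ℤ) : ℚ)⁻¹ • u ∈ L := by
    refine h.st.n23 _ (h.dual_div (by norm_num) hd) ?_
    rw [smul_smul]
    norm_num
    exact h.u_mem
  have hE : EU (b.restrict (LinearMap.ker (b u)))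
      (L.comap ((LinearMap.ker (b u)).subtype.restrictScalars ℤ)) := by
    refine ⟨fun x y => h.st.ctx.symm _ _, fun x hx => h.st.ctx.pos _ fun h0 => hx (Subtype.ext h0),
      isLattice_comap h.st.lat _, fun x hx => h.even0 hx x.2, fun x hx => ?_⟩
    refine h.p2 _ x.2 fun y hy => ?_
    obtain ⟨k, hk⟩ := h.dvd y hy
    have h2 : y - (k : ℚ) • ((23 : ℤ) : ℚ)⁻¹ • u ∈ LinearMap.ker (b u) := by
      rw [LinearMap.mem_ker, map_sub, map_smul, map_smul, h.uu, hk]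
      simp only [smul_eq_mul]
      push_cast
      ring
    refine (hx ⟨_, h2⟩ (L.sub_mem hy (smul_int_mem h1 k))).of_eq ?_
    have h3 : b x u = 0 := by rw [h.st.ctx.symm]; exact x.2
    simp [h3]
  have h8 := hE.eight_dvd
  have hr : LinearMap.range (b u) = ⊤ := by
    rw [eq_top_iff]
    rintro a -
    refine ⟨(a / d) • x1, ?_⟩
    rw [map_smul, h.ux1, smul_eq_mul, div_mul_cancel₀ _ h.d_ne]
  have := LinearMap.finrank_range_add_finrank_ker (b u)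
  rw [hr, finrank_top, finrank_self, finrank_fin_fun] at this
  omega

theorem S1.nsq (h : S1 ρ b τ L u x1 d) {q : ℕ} (hq : q.Prime) (h23 : ¬ (q : ℤ) ∣ 23) :
    ¬ (q : ℤ) ^ 2 ∣ d := by
  intro hd
  have hq0 : (q : ℚ) ≠ 0 := Nat.cast_ne_zero.2 hq.ne_zero
  have h1 := h.st.sqf q hq _ (h.dual_div (pow_ne_zero 2 (Nat.cast_ne_zero.2 hq.ne_zero)) hd) (by
    rw [smul_smul]
    push_cast
    rw [mul_inv_cancel₀ (pow_ne_zero 2 hq0), one_smul]
    exact h.u_mem)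
  obtain ⟨k, hk⟩ := h.dvd _ h1
  rw [map_smul, map_smul, h.uu] at hk
  simp only [smul_eq_mul] at hk
  push_cast at hk
  have hd0 := h.d_ne
  have : (23 : ℚ) = q * k := by
    field_simp at hk
    linarith
  exact h23 ⟨k, by exact_mod_cast this⟩

theorem S1.of_even (h : S1 ρ b τ L u x1 d) (hd : Even d) : St ρ b τ L u x1 d := by
  refine ⟨h.st.ctx, h.st.lat, h.st.inv, h.st.int, fun x hx => ?_, h.st.ord, h.fix, h.u_mem, h.x1_mem,
    h.uu, h.ux1, h.dvd, h.p2, h.pos, hd, h.n23, fun h8 => ?_, fun h9 => ?_⟩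
  · obtain ⟨k, hk⟩ := h.dvd x hx
    obtain ⟨a, ha⟩ := hd
    refine ((IsZ.int (k ^ 2 * a)).sub (h.par hx hk)).of_eq ?_
    rw [ha]
    push_cast
    ring
  · exact h.nsq Nat.prime_two (by norm_num) (Dvd.dvd.trans (by norm_num) h8)
  · exact h.nsq Nat.prime_three (by norm_num) (Dvd.dvd.trans (by norm_num) h9)

/-- the even sublattice -/
def evn (h : St0 ρ b τ L) : Submodule ℤ V where
  carrier := {x | x ∈ L ∧ IsZ (b x x / 2)}
  zero_mem' := ⟨L.zero_mem, IsZ.zero.of_eq (by simp)⟩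
  add_mem' := by
    rintro x y ⟨hx, h1⟩ ⟨hy, h2⟩
    refine ⟨L.add_mem hx hy, ((h1.add h2).add (h.int x hx y hy)).of_eq ?_⟩
    simp only [map_add, LinearMap.add_apply]
    rw [h.ctx.symm y x]
    ring
  smul_mem' := by
    rintro n x ⟨hx, h1⟩
    refine ⟨L.smul_mem n hx, ((IsZ.int (n * n)).mul h1).of_eq ?_⟩
    rw [← Int.cast_smul_eq_zsmul ℚ, LinearMap.BilinForm.smul_left, map_smul, smul_eq_mul]
    push_cast
    ring

theorem two_mem (h : St0 ρ b τ L) {x : V} (hx : x ∈ L) (k : ℤ) : ((2 * k : ℤ) : ℚ) • x ∈ evn h := by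
  refine ⟨smul_int_mem hx _, ((IsZ.int (2 * k * k)).mul (h.int x hx x hx)).of_eq ?_⟩
  rw [LinearMap.BilinForm.smul_left, map_smul, smul_eq_mul]
  push_cast
  ring

theorem two_mem' (h : St0 ρ b τ L) {x : V} (hx : x ∈ L) : (2 : ℚ) • x ∈ evn h := by
  simpa using two_mem h hx 1

theorem S1.of_odd (h : S1 ρ b τ L u x1 d) (hd : Odd d) :
    St ρ b τ (evn h.st) ((2 : ℚ) • u) ((2 : ℚ) • x1) (4 * d) := by
  refine ⟨h.st.ctx, ⟨h.st.lat.fg.of_le fun x hx => hx.1, ?_⟩, fun g x hx => ⟨h.st.inv g x hx.1, ?_⟩,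
    fun x hx y hy => h.st.int x hx.1 y hy.1, fun x hx => hx.2, h.st.ord, fun x => ?_,
    two_mem' h.st h.u_mem, two_mem' h.st h.x1_mem, ?_, ?_, fun x hx => ?_, fun w hw hw' => ?_,
    by have := h.pos; omega, ⟨2 * d, by ring⟩, fun h23 => ?_, fun h8 => ?_, fun h9 => ?_⟩
  · rw [eq_top_iff, ← h.st.lat.span_eq_top, Submodule.span_le]
    intro x hx
    have := Submodule.smul_mem _ (2 : ℚ)⁻¹
      (Submodule.subset_span (R := ℚ) (s := (evn h.st : Set V)) (two_mem' h.st hx))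
    rwa [smul_smul, inv_mul_cancel₀ two_ne_zero, one_smul] at this
  · rw [h.st.ctx.inv]; exact hx.2
  · rw [h.fix]
    refine ⟨fun ⟨a, ha⟩ => ⟨a / 2, ?_⟩, fun ⟨a, ha⟩ => ⟨a * 2, by rw [ha, smul_smul]⟩⟩
    rw [ha, smul_smul, div_mul_cancel₀ _ two_ne_zero]
  · rw [LinearMap.BilinForm.smul_left, map_smul, smul_eq_mul, h.uu]
    push_cast
    ring
  · rw [LinearMap.BilinForm.smul_left, map_smul, smul_eq_mul, h.ux1]
    push_cast
    ring
  · obtain ⟨k, hk⟩ := h.dvd x hx.1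
    obtain ⟨a, ha⟩ := (h.par hx.1 hk).add hx.2
    have h1 : k ^ 2 * d = 2 * a := by
      have : (k : ℚ) ^ 2 * d = 2 * a := by linarith
      exact_mod_cast this
    have h2 : Even (k ^ 2 * d) := ⟨a, by rw [h1]; ring⟩
    rw [Int.even_mul, Int.even_pow] at h2
    obtain ⟨c, hc⟩ := (h2.resolve_right (Int.not_even_iff_odd.2 hd)).1
    refine ⟨c, ?_⟩
    rw [LinearMap.BilinForm.smul_left, hk, hc]
    push_cast
    ring
  · have hw0 : b u w = 0 := by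
      rw [LinearMap.BilinForm.smul_left] at hw
      linarith
    have hL : w ∈ L := by
      refine h.p2 w hw0 fun x hx => ?_
      obtain ⟨k, hk⟩ := h.dvd x hx
      have h1 : ((23 : ℤ) : ℚ) • x - (k : ℚ) • u ∈ L :=
        L.sub_mem (smul_int_mem hx _) (smul_int_mem h.u_mem _)
      have h2 : ((23 : ℤ) : ℚ) • x - (k : ℚ) • u ∈ evn h.st := by
        refine ⟨h1, h.even0 h1 ?_⟩
        rw [map_sub, map_smul, map_smul, hk, h.uu]
        simp only [smul_eq_mul]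
        push_cast
        ring
      refine ((hw' _ (two_mem h.st hx 12)).sub (hw' _ h2)).of_eq ?_
      have h3 : b w u = 0 := by rw [h.st.ctx.symm]; exact hw0
      simp only [map_sub, map_smul, smul_eq_mul, h3]
      push_cast
      ring
    exact ⟨hL, h.even0 hL hw0⟩
  · exact h.n23 (by omega)
  · obtain ⟨a, ha⟩ := hd
    omega
  · exact h.nsq Nat.prime_three (by norm_num) (by norm_num; omega)

end StA

/-- Proof.  `T = ρ τ`, `N = ∑ i < 23, T^i`; `N x` is fixed by `T`.  Scale the `u'` of `fix` into `L`.  The set `{b u' x | x ∈ L}`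
is a non-zero ideal `(e)` of `ℤ`; pick `x1 ∈ L` with `b u' x1 = e`, put `u := N x1 = (23 e / b u' u') • u' ∈ L` and
`d := b u x1 > 0`; then `b u u = 23 d` and `b u x ∈ d ℤ` for `x ∈ L`, `N x = (b u x / d) • u`.
* `p2`: `w` dual with `b u w = 0`: `T^i w - w ∈ L` (`triv`, induction), `N w = 0`, so `23 w ∈ L`, `w ∈ L` (`n23`).
* parity: for `x ∈ L` with `b u x = k d`: `k² d = b x (N x) = b x x + 2 ∑_{1 ≤ i ≤ 11} b x (T^i x)`
  (`b x (T^(23-i) x) = b (T^i x) x`), so `b x x ≡ k² d mod 2`.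
* `23 ∤ d`: otherwise `u/23` is dual, so in `L` (`n23`), so `x - (k/23) u ∈ L` for `x ∈ L`, and `L ∩ u^⊥` is an even
  self-dual (`p2`) lattice in the 22-dimensional `u^⊥` (`isLattice_comap`), against `EU.eight_dvd`.
* `q² ∤ d` for `q = 2, 3`: `u/q²` dual, `u/q ∈ L` by `sqf`, `b u (u/q) = 23 d/q ∈ dℤ`, `q ∣ 23`.
If `d` is even take `(L, u, x1, d)`.  If `d` is odd take `L' = {x ∈ L | b x x even} = {x ∈ L | 2d ∣ b u x}` (invariant,
contains `2L`), `2u`, `2 x1`, `m = 4d`; `p2` for `L'`: `b w x = b w (24 x) - b w (23 x - N x)` for `b u w = 0`,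
with `24 x`, `23 x - N x ∈ L'`. -/
theorem St0.st (h : St0 ρ b τ L) : ∃ (L' : Submodule ℤ V) (u x1 : V) (m : ℤ), St ρ b τ L' u x1 m := by
  obtain ⟨u, x1, d, h1⟩ := StA.exists_s1 h
  rcases Int.even_or_odd d with hd | hd
  · exact ⟨_, _, _, _, h1.of_even hd⟩
  · exact ⟨_, _, _, _, h1.of_odd hd⟩

end CL.F23
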