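/-
S3355: the main theorem.
-/
import Cfsg.Agent.REC.F23.ModA
import Cfsg.Agent.REC.F23.MinA
import Cfsg.Agent.REC.F23.MinB
import Cfsg.Agent.REC.F23.StA
import Cfsg.Agent.REC.F23.RT
import Cfsg.Agent.REC.F23.M2
import Cfsg.Agent.REC.F23.EX
import Cfsg.Agent.REC.F23.LE

set_option autoImplicit false

namespace CL.F23

open Matrix Module

theorem main {G : Type*} [Group G] [Finite G]
    (ρ : G →* GL (Fin 23) ℚ) (hρ : Function.Injective ρ)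
    (hirr : ∀ W : Submodule ℚ (Fin 23 → ℚ), (∀ g : G, ∀ w ∈ W,
      ((ρ g : GL (Fin 23) ℚ) : Matrix (Fin 23) (Fin 23) ℚ).mulVec w ∈ W) → W = ⊥ ∨ W = ⊤)
    (hI : ¬ Idx G) : Goal G := by
  obtain ⟨σ, B, h1⟩ := exists_mod ρ hρ hirr
  obtain ⟨σ', B', τ, h2⟩ := exists_good h1
  obtain ⟨ρ', b, L0, h3⟩ := h2.st0
  obtain ⟨L, u, x1, m, h⟩ := h3.st
  have hr : NoRoot b L u := fun x hx hu e => hI (h.idx_of_root hx hu e)
  rcases h.m_cases hr with rfl | ⟨s, hs⟩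
  · exact absurd (h.idx_of_two hr) hI
  obtain ⟨φ, hφ⟩ := (h.eu hs).leech (by simp) (h.noroot hr hs)
  obtain ⟨ε, hε⟩ := h.sign hr hs
  exact h.ctx.goal h.pos _ (h.eu hs).lat φ hφ (h.half hs).1 (h.half hs).2 ε hε hI

end CL.F23
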